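import Cfsg.Agent.H8.LinTv
import Cfsg.Agent.H6.PSUAut

/-! Transvection subgroups of symplectic and unitary groups. -/

set_option autoImplicit false

namespace Cfsg.Agent.H8

open Matrix MatrixGroups QP H6 H6.FTPG

variable {ι : Type*} [Fintype ι] [DecidableEq ι] {F : Type*} [Field F]
  {H : Type*} [Group H] {ρ : H →* Matrix ι ι F} {τ : F ≃+* F} {A : Matrix ι ι F}

variable (τ A) in
/-- the transvections of a polar space -/
def polFam (l : F) : Set (Matrix ι ι F) :=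
  {s | ∃ a : ι → F, a ≠ 0 ∧ sf (τ : F →+* F) A a a = 0 ∧ s = vecMulVec a (l • pf τ A a)}

theorem pf_vecMul (I : Isom ρ τ A) (x : H) (a : ι → F) :
    pf τ A a ᵥ* ρ x⁻¹ = pf τ A (ρ x *ᵥ a) := by
  ext i
  have := I.perp_iff x (Pi.single i 1) a
  rw [← pf_dot, ← pf_dot, dotProduct_mulVec] at this
  simpa using this.symm

variable {k : Type*} [Field k] [Algebra k F] {l : F}

omit [DecidableEq ι] in
theorem polFam_mul3 (a b : ι → F) {c : k}
    (hc : algebraMap k F c = l * sf (τ : F →+* F) A b a * (l * sf (τ : F →+* F) A a b)) :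
    vecMulVec a (l • pf τ A a) * vecMulVec b (l • pf τ A b) * vecMulVec a (l • pf τ A a) =
      c • vecMulVec a (l • pf τ A a) := by
  rw [vv_mul3, smul_dotProduct, smul_dotProduct, pf_dot, pf_dot, smul_eq_mul, smul_eq_mul, ← hc,
    algebraMap_smul]

theorem polFam_two (I : Isom ρ τ A) (hl : l ≠ 0)
    (hk : ∀ a b, ∃ c : k,
      algebraMap k F c = l * sf (τ : F →+* F) A b a * (l * sf (τ : F →+* F) A a b))
    {s t : Matrix ι ι F} (hs : s ∈ polFam τ A l) (ht : t ∈ polFam τ A l) :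
    s * t = t * s ∨ (∃ c : k, c ≠ 0 ∧ s * t * s = c • s ∧ t * s * t = c • t) := by
  obtain ⟨a, -, -, rfl⟩ := hs
  obtain ⟨b, -, -, rfl⟩ := ht
  by_cases h : sf (τ : F →+* F) A b a = 0
  · left
    rw [vv_mul, vv_mul, smul_dotProduct, smul_dotProduct, pf_dot, pf_dot, h, I.refl _ _ h]
    simp
  · right
    obtain ⟨c, hc⟩ := hk a b
    refine ⟨c, ?_, polFam_mul3 a b hc, polFam_mul3 b a (by rw [hc, mul_comm])⟩
    rintro rfl
    rw [map_zero] at hc
    exact mul_ne_zero (mul_ne_zero hl h) (mul_ne_zero hl (I.refl_ne h)) hc.symm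

theorem pol_fam (I : Isom ρ τ A) (inj : Function.Injective ρ) (hl : l ≠ 0)
    (hk : ∀ a b, ∃ c : k,
      algebraMap k F c = l * sf (τ : F →+* F) A b a * (l * sf (τ : F →+* F) A a b))
    (hfull : ∀ a, sf (τ : F →+* F) A a a = 0 → ∀ c : k,
      ∃ g, ρ g = tv a ((algebraMap k F c * l) • pf τ A a)) :
    Fam k ρ (polFam τ A l) where
  inj := inj
  sq := by
    rintro _ ⟨a, -, h, rfl⟩
    rw [vv_mul, smul_dotProduct, pf_dot, h, smul_zero, zero_smul]
  ne := by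
    rintro _ ⟨a, ha, -, rfl⟩
    exact vv_ne_zero ha (smul_ne_zero hl (pf_ne_zero I.det ha))
  full := by
    rintro _ ⟨a, -, h, rfl⟩ c
    obtain ⟨g, hg⟩ := hfull a h c
    exact ⟨g, by rw [hg, mul_smul, tv_smul_eq, algebraMap_smul]⟩
  conj := by
    rintro _ ⟨a, ha, h, rfl⟩ g
    exact ⟨_, rho_mulVec_ne_zero g ha, by rw [I.isom, h],
      by rw [vv_conj, smul_vecMul, pf_vecMul I]⟩
  tri := fun _ hs _ ht => (polFam_two I hl hk hs ht).imp_right Or.inl

theorem pol_conn (I : Isom ρ τ A) (hl : l ≠ 0) (hF : Fam k ρ (polFam τ A l))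
    (hk : ∀ a b, ∃ c : k,
      algebraMap k F c = l * sf (τ : F →+* F) A b a * (l * sf (τ : F →+* F) A a b))
    (hadd : ∀ a v, sf (τ : F →+* F) A a a = 0 → sf (τ : F →+* F) A v a ≠ 0 →
      ∃ x : F, sf (τ : F →+* F) A (v + x • a) (v + x • a) = 0)
    {s t : Matrix ι ι F} (hs : s ∈ polFam τ A l) (ht : t ∈ polFam τ A l) :
    Reach (Lq k ρ '' polFam τ A l) (Lq k ρ s) (Lq k ρ t) := by
  have key : ∀ a b, sf (τ : F →+* F) A a a = 0 → sf (τ : F →+* F) A b b = 0 →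
      sf (τ : F →+* F) A b a ≠ 0 → Reach (Lq k ρ '' polFam τ A l)
        (Lq k ρ (vecMulVec a (l • pf τ A a))) (Lq k ρ (vecMulVec b (l • pf τ A b))) := by
    intro a b ha hb h
    have h1 : vecMulVec a (l • pf τ A a) ∈ polFam τ A l :=
      ⟨a, fun e => h (by rw [e, sf_zero_right]), ha, rfl⟩
    have h2 : vecMulVec b (l • pf τ A b) ∈ polFam τ A l :=
      ⟨b, fun e => h (by rw [e, sf_zero_left]), hb, rfl⟩
    obtain ⟨c, hc⟩ := hk a b
    refine Reach.single ⟨_, h1, rfl⟩ ⟨_, h2, rfl⟩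
      (hF.ro h1 h2 ?_ (polFam_mul3 a b hc) (polFam_mul3 b a (by rw [hc, mul_comm])))
    rintro rfl
    rw [map_zero] at hc
    exact mul_ne_zero (mul_ne_zero hl h) (mul_ne_zero hl (I.refl_ne h)) hc.symm
  obtain ⟨a, ha0, ha, rfl⟩ := hs
  obtain ⟨b, hb0, hb, rfl⟩ := ht
  by_cases h : sf (τ : F →+* F) A b a = 0
  · obtain ⟨v, h3, h4⟩ := exists_two_ne (τ := τ) I.det ha0 hb0
    obtain ⟨x, hx⟩ := hadd a v ha h3
    have e1 : sf (τ : F →+* F) A (v + x • a) a ≠ 0 := by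
      rwa [sf_add_left, sf_smul_left, ha, mul_zero, add_zero]
    have e2 : sf (τ : F →+* F) A (v + x • a) b ≠ 0 := by
      rwa [sf_add_left, sf_smul_left, I.refl _ _ h, mul_zero, add_zero]
    exact (key _ _ ha hx e1).trans (key _ _ hb hx e2).symm
  · exact key a b ha hb h

section sp

variable (U : Splike ρ A)
include U

omit [DecidableEq ι] [Group H] U in
theorem sp_hk (a b : ι → F) : ∃ c : F, algebraMap F F c =
    1 * sf ((RingEquiv.refl F : F ≃+* F) : F →+* F) A b a *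
      (1 * sf ((RingEquiv.refl F : F ≃+* F) : F →+* F) A a b) := ⟨_, rfl⟩

theorem sp_fam : Fam F ρ (polFam (RingEquiv.refl F) A 1) :=
  pol_fam U.toIsom U.inj one_ne_zero sp_hk fun a _ _ => U.exists_tv a _

theorem sp_conn {s t : Matrix ι ι F} (hs : s ∈ polFam (RingEquiv.refl F) A 1)
    (ht : t ∈ polFam (RingEquiv.refl F) A 1) :
    Reach (Lq F ρ '' polFam (RingEquiv.refl F) A 1) (Lq F ρ s) (Lq F ρ t) :=
  pol_conn U.toIsom one_ne_zero (sp_fam U) sp_hk (fun _ _ _ _ => ⟨0, U.alt _⟩) hs ht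

theorem sp_gen : (⨆ B ∈ Lq F ρ '' polFam (RingEquiv.refl F) A 1, B) = ⊤ := by
  rw [eq_top_iff, ← U.tvSub_eq_top, tvSub, Subgroup.closure_le]
  intro t ht
  rcases TvOr1.cases ht with h | ⟨a, f, hf⟩
  · rw [U.inj (h.trans (map_one _).symm)]
    exact Subgroup.one_mem _
  · obtain ⟨c, -, hc⟩ := (U.toIsom.par_pf hf).symm
    have hs : vecMulVec a ((1 : F) • pf (RingEquiv.refl F) A a) ∈ polFam (RingEquiv.refl F) A 1 :=
      ⟨a, hf.1, U.alt a, rfl⟩
    exact le_gen_of_mem (S := Lq F ρ '' polFam (RingEquiv.refl F) A 1) ⟨_, hs, rfl⟩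
      ((mem_Lq ((sp_fam U).sq _ hs)).2 ⟨c, by rw [hf.2.2.2, hc, one_smul, tv_smul_eq]⟩)

end sp

end Cfsg.Agent.H8
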