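import Cfsg.Agent.H8.Lin
import Cfsg.Agent.H7.Hyp
import Cfsg.Agent.H7.Bridge

/-! Siegel transvection subgroups of orthogonal groups. -/

set_option autoImplicit false

namespace Cfsg.Agent.H8

open QuadraticMap Module QP H7

variable {F V : Type*} [Field F] [AddCommGroup V] [Module F V] {Q : QuadraticForm F V}

variable (Q) in
/-- the nilpotent part of a Siegel transvection -/
def sg (p r : V) : End F V :=
  ((polarBilin Q).flip r).smulRight p - ((polarBilin Q).flip p).smulRight r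

theorem sg_app (p r x : V) : sg Q p r x = polar Q x r • p - polar Q x p • r := by simp [sg]

theorem sg_swap (p r : V) : sg Q p r = (-1 : F) • sg Q r p := by
  ext x
  simp only [sg_app, LinearMap.smul_apply]
  module

theorem sg_eq_zero {p r : V} (h : ¬ LinearIndependent F ![p, r]) : sg Q p r = 0 := by
  rw [LinearIndependent.pair_iff] at h
  push Not at h
  obtain ⟨s, t, h, h'⟩ := h
  ext x
  rw [sg_app, LinearMap.zero_apply]
  by_cases hs : s = 0
  · rw [hs, zero_smul, zero_add, smul_eq_zero] at h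
    rcases h with h | rfl
    · exact absurd h (h' hs)
    · simp
  · have : p = (-(s⁻¹ * t)) • r := by
      rw [← one_smul F p, ← inv_mul_cancel₀ hs]
      linear_combination (norm := module) s⁻¹ • h
    rw [this, B_smul_right]
    module

theorem sg_mul3 (p r p' r' : V) : sg Q p r * sg Q p' r' * sg Q p r =
    (polar Q p r' * polar Q r p' - polar Q p p' * polar Q r r') • sg Q p r := by
  ext x
  simp only [End.mul_apply, sg_app, LinearMap.smul_apply]
  qsimp
  simp only [B_comm Q p' p, B_comm Q p' r, B_comm Q r' p, B_comm Q r' r]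
  module

variable (Q) in
/-- the Siegel elements -/
def sgFam : Set (End F V) := {s | ∃ p r, LinearIndependent F ![p, r] ∧ Q p = 0 ∧ Q r = 0 ∧
  polar Q p r = 0 ∧ s = sg Q p r}

theorem exists_factor {a b c d : F} (h : b * c - a * d = 0) :
    ∃ x₁ x₂ y₁ y₂ : F, a = x₁ * y₁ ∧ b = x₁ * y₂ ∧ c = x₂ * y₁ ∧ d = x₂ * y₂ := by
  by_cases ha : a = 0
  · by_cases hb : b = 0
    · exact ⟨0, 1, c, d, by simp [ha], by simp [hb], by simp, by simp⟩
    · refine ⟨1, d / b, a, b, by simp, by simp, ?_, by field_simp⟩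
      field_simp
      linear_combination h
  · refine ⟨1, c / a, a, b, by simp, by simp, by field_simp, ?_⟩
    field_simp
    linear_combination -h

theorem sgFam_tri {s t : End F V} (hs : s ∈ sgFam Q) (ht : t ∈ sgFam Q) : s * t = t * s ∨
    (∃ c : F, c ≠ 0 ∧ s * t * s = c • s ∧ t * s * t = c • t) ∨
    (s * t * s = 0 ∧ t * s * t = 0 ∧ s * t - t * s ∈ sgFam Q) := by
  obtain ⟨p, r, -, hp, hr, hpr, rfl⟩ := hs
  obtain ⟨p', r', -, hp', hr', hpr', rfl⟩ := ht
  have e1 := sg_mul3 (Q := Q) p r p' r'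
  have e2 := sg_mul3 (Q := Q) p' r' p r
  rw [B_comm Q p' r, B_comm Q r' p, B_comm Q p' p, B_comm Q r' r, mul_comm (polar Q r p')] at e2
  by_cases h : polar Q p r' * polar Q r p' - polar Q p p' * polar Q r r' = 0
  · rw [h, zero_smul] at e1 e2
    obtain ⟨x₁, x₂, y₁, y₂, h1, h2, h3, h4⟩ := exists_factor h
    have e : sg Q p r * sg Q p' r' - sg Q p' r' * sg Q p r =
        sg Q (y₂ • p' - y₁ • r') (x₂ • p - x₁ • r) := by
      ext x
      simp only [LinearMap.sub_apply, End.mul_apply, sg_app]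
      qsimp
      simp only [B_comm Q p' p, B_comm Q p' r, B_comm Q r' p, B_comm Q r' r, h1, h2, h3, h4]
      module
    by_cases hi : LinearIndependent F ![y₂ • p' - y₁ • r', x₂ • p - x₁ • r]
    · refine Or.inr (Or.inr ⟨e1, e2, _, _, hi, ?_, ?_, ?_, e⟩)
      · qsimp; rw [hp', hr', hpr']; ring
      · qsimp; rw [hp, hr, hpr]; ring
      · qsimp
        simp only [B_comm Q p' p, B_comm Q p' r, B_comm Q r' p, B_comm Q r' r, h1, h2, h3, h4]
        ring
    · exact Or.inl (sub_eq_zero.1 (e.trans (sg_eq_zero hi)))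
  · exact Or.inr (Or.inl ⟨_, h, e1, e2⟩)

theorem exists_opp [FiniteDimensional F V] (hQ : ND Q) {p r : V} (hi : LinearIndependent F ![p, r])
    (hp : Q p = 0) (hr : Q r = 0) (hpr : polar Q p r = 0) :
    ∃ p' r', LinearIndependent F ![p', r'] ∧ Q p' = 0 ∧ Q r' = 0 ∧ polar Q p' r' = 0 ∧
      polar Q p p' = 1 ∧ polar Q p r' = 0 ∧ polar Q r p' = 0 ∧ polar Q r r' = 1 := by
  obtain ⟨f, hf⟩ := exists_hypSys hQ hi (by simp [Fin.forall_fin_two, hp, hr])
    (by simp [Fin.forall_fin_two, hp, hr, hpr, B_comm Q r p])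
  refine ⟨f 0, f 1, ?_, hf.Qf 0, hf.Qf 1, hf.ff 0 1, by simpa using hf.ef 0 0,
    by simpa using hf.ef 0 1, by simpa using hf.ef 1 0, by simpa using hf.ef 1 1⟩
  convert hf.symm.linearIndependent_e using 1
  ext i
  fin_cases i <;> rfl

variable {H : Type*} [Group H] {ρ : H →* End F V}

variable (Q ρ) in
/-- `H` is the full orthogonal group -/
structure Olike : Prop where
  nd : ND Q
  inj : Function.Injective ρ
  isom : ∀ g x, Q (ρ g x) = Q x
  surj : ∀ g : OG Q, ∃ h, ∀ x, ρ h x = g.1 x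

namespace Olike

variable (U : Olike Q ρ)
include U

theorem B_map (g : H) (x y : V) : polar Q (ρ g x) (ρ g y) = polar Q x y :=
  polar_map_of (ρ g) (U.isom g) x y

omit U in
theorem app_inv (g : H) (x : V) : ρ g (ρ g⁻¹ x) = x := by
  rw [← End.mul_apply, ← map_mul, mul_inv_cancel, map_one, End.one_apply]

variable [FiniteDimensional F V]

theorem fam : Fam F ρ (sgFam Q) where
  inj := U.inj
  sq := by
    rintro _ ⟨p, r, -, hp, hr, hpr, rfl⟩
    ext x
    simp only [End.mul_apply, sg_app]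
    qsimp
    simp [hp, hr, hpr, B_comm Q r p]
  ne := by
    rintro _ ⟨p, r, hi, hp, hr, hpr, rfl⟩ h
    obtain ⟨p', r', -, -, -, -, -, h1, -, h2⟩ := exists_opp U.nd hi hp hr hpr
    have := LinearMap.congr_fun h r'
    rw [sg_app, B_comm Q r', B_comm Q r', h1, h2] at this
    exact hi.ne_zero 0 (by simpa using this)
  full := by
    rintro _ ⟨p, r, -, hp, hr, hpr, rfl⟩ c
    obtain ⟨g, hg⟩ := U.surj (siegel p (c • r) hp (by simp [hpr]))
    refine ⟨g, LinearMap.ext fun x => ?_⟩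
    rw [hg]
    change siegelMap Q p (c • r) x = _
    simp only [siegelMap_apply, LinearMap.add_apply, End.one_apply, LinearMap.smul_apply, sg_app]
    qsimp
    rw [hr]
    module
  conj := by
    rintro _ ⟨p, r, hi, hp, hr, hpr, rfl⟩ g
    refine ⟨ρ g p, ρ g r, ?_, by rw [U.isom, hp], by rw [U.isom, hr], by rw [U.B_map, hpr],
      LinearMap.ext fun x => ?_⟩
    · rw [LinearIndependent.pair_iff] at hi ⊢
      intro s t h
      apply hi
      have := congrArg (ρ g⁻¹) h
      simpa only [map_add, map_smul, map_zero, ← End.mul_apply, ← map_mul, inv_mul_cancel, map_one,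
        End.one_apply] using this
    · simp only [End.mul_apply, sg_app, map_sub, map_smul]
      rw [← U.B_map g _ r, ← U.B_map g _ p, app_inv]
  tri := fun _ hs _ ht => sgFam_tri hs ht

theorem ni (A : Subgroup H) (hA : A ∈ Lq F ρ '' sgFam Q) : NI (Lq F ρ '' sgFam Q) A := by
  obtain ⟨_, ⟨p, r, hi, hp, hr, hpr, rfl⟩, rfl⟩ := hA
  obtain ⟨p', r', hi', hp', hr', hpr', h1, h2, h3, h4⟩ := exists_opp U.nd hi hp hr hpr
  have m : sg Q p' r' ∈ sgFam Q := ⟨p', r', hi', hp', hr', hpr', rfl⟩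
  refine ⟨_, ⟨_, m, rfl⟩, U.fam.ro ⟨p, r, hi, hp, hr, hpr, rfl⟩ m (c := -1) (by simp) ?_ ?_⟩
  · rw [sg_mul3, h1, h2, h3, h4]; simp
  · rw [sg_mul3, B_comm Q p', B_comm Q r', B_comm Q p', B_comm Q r', h1, h2, h3, h4]; simp

theorem reach_of_ne {s t : End F V} (hs : s ∈ sgFam Q) (ht : t ∈ sgFam Q) (h : s * t ≠ t * s) :
    Reach (Lq F ρ '' sgFam Q) (Lq F ρ s) (Lq F ρ t) := by
  by_contra hr
  exact h ((U.fam.cm_iff hs ht).1
    (U.fam.lrs.cm_of_not_reach U.ni ⟨_, hs, rfl⟩ ⟨_, ht, rfl⟩ hr))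

theorem eq_of_fix {p r : V} (hi : LinearIndependent F ![p, r]) (hp : Q p = 0) (hr : Q r = 0)
    (hpr : polar Q p r = 0) {g : H} (hg : ∀ v, polar Q v p = 0 → polar Q v r = 0 → ρ g v = v) :
    ∃ c : F, ρ g = 1 + c • sg Q p r := by
  obtain ⟨p', r', -, hp', hr', hpr', h1, h2, h3, h4⟩ := exists_opp U.nd hi hp hr hpr
  have dec : ∀ x, polar Q (x - polar Q x p • p' - polar Q x r • r') p = 0 ∧
      polar Q (x - polar Q x p • p' - polar Q x r • r') r = 0 := fun x => by
    qsimp
    simp [B_comm Q p', B_comm Q r', h1, h2, h3, h4]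
  have mv : ∀ v, ∃ a b : F, ρ g v = v + a • p + b • r := fun v => by
    refine ⟨polar Q (ρ g v - v) p', polar Q (ρ g v - v) r', U.nd.ext fun x => ?_⟩
    have e := U.B_map g v (x - polar Q x p • p' - polar Q x r • r')
    rw [hg _ (dec x).1 (dec x).2] at e
    revert e
    qsimp
    rw [B_comm Q p x, B_comm Q r x]
    intro e
    linear_combination e
  obtain ⟨a, b, e1⟩ := mv p'
  obtain ⟨c, d, e2⟩ := mv r'
  have q1 := U.isom g p'
  have q2 := U.isom g r'
  have q3 := U.B_map g p' r'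
  rw [e1] at q1 q3
  rw [e2] at q2 q3
  revert q1 q2 q3
  qsimp
  simp only [B_comm Q p' p, B_comm Q p' r, B_comm Q r' p, B_comm Q r' r, B_comm Q r p, h1, h2, h3,
    h4, hp, hr, hpr, hp', hr', hpr']
  intro q1 q2 q3
  refine ⟨c, LinearMap.ext fun x => ?_⟩
  have e := hg _ (dec x).1 (dec x).2
  rw [map_sub, map_sub, map_smul, map_smul, e1, e2, show a = 0 by linear_combination q1,
    show d = 0 by linear_combination q2, show b = -c by linear_combination q3] at e
  simp only [LinearMap.add_apply, End.one_apply, LinearMap.smul_apply, sg_app]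
  linear_combination (norm := module) e

theorem conn {κ : Type*} [Fintype κ] [DecidableEq κ] (b : κ → V) (σ : κ → κ)
    (hσ : ∀ i, σ (σ i) = i) (h5 : 5 ≤ Fintype.card κ)
    (hQ : ∀ i, Q (b i) = 0) (hB : ∀ i j, polar Q (b i) (b j) = if i = σ j then 1 else 0)
    (hsp : ∀ s : End F V, (∀ i, s (b i) = 0) → s = 0)
    {s t : End F V} (hs : s ∈ sgFam Q) (ht : t ∈ sgFam Q) :
    Reach (Lq F ρ '' sgFam Q) (Lq F ρ s) (Lq F ρ t) := by
  have inj : ∀ {i j}, σ i = σ j ↔ i = j := fun {i j} =>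
    ⟨fun h => by rw [← hσ i, h, hσ], fun h => by rw [h]⟩
  have sw : ∀ {i j}, i = σ j ↔ j = σ i := fun {i j} =>
    ⟨fun h => by rw [h, hσ], fun h => by rw [h, hσ]⟩
  have b0 : ∀ i, b i ≠ 0 := fun i h => by simpa [h] using hB (σ i) i
  have av : ∀ x y z w : κ, ∃ u, u ≠ x ∧ u ≠ y ∧ u ≠ z ∧ u ≠ w := fun x y z w => by
    by_contra h
    push Not at h
    have : (Finset.univ : Finset κ) ⊆ {x, y, z, w} := fun u _ => by
      have := h u
      simp only [Finset.mem_insert, Finset.mem_singleton]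
      tauto
    have h1 := Finset.card_le_card this
    have h2 := Finset.card_le_four (a := x) (b := y) (c := z) (d := w)
    rw [Finset.card_univ] at h1
    omega
  have mem : ∀ x y, y ≠ x → y ≠ σ x → sg Q (b x) (b y) ∈ sgFam Q := fun x y h1 h2 => by
    refine ⟨_, _, LinearIndependent.pair_iff.2 fun s t h => ⟨?_, ?_⟩, hQ x, hQ y,
      by rw [hB, if_neg (mt sw.1 h2)], rfl⟩
    · have := congrArg (polar Q (b (σ x))) h
      revert this
      qsimp
      simp [hB, inj, h1.symm]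
    · have := congrArg (polar Q (b (σ y))) h
      revert this
      qsimp
      simp [hB, inj, h1]
  have step : ∀ x y z, y ≠ x → y ≠ σ x → z ≠ x → z ≠ σ x → z ≠ y →
      Reach (Lq F ρ '' sgFam Q) (Lq F ρ (sg Q (b x) (b y))) (Lq F ρ (sg Q (b (σ x)) (b z))) := by
    intro x y z h1 h2 h3 h4 h5
    refine U.reach_of_ne (mem x y h1 h2) (mem _ z h4 (by rwa [hσ])) fun h => ?_
    have := LinearMap.congr_fun h (b (σ z))
    simp [sg_app, hB, inj, h1.symm, h3, h4, h5, b0] at this
  have same : ∀ x y z, y ≠ x → y ≠ σ x → z ≠ x → z ≠ σ x →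
      Reach (Lq F ρ '' sgFam Q) (Lq F ρ (sg Q (b x) (b y))) (Lq F ρ (sg Q (b x) (b z))) := by
    intro x y z h1 h2 h3 h4
    obtain ⟨u, u1, u2, u3, u4⟩ := av x (σ x) y z
    exact (step x y u h1 h2 u1 u2 u3).trans (step x z u h3 h4 u1 u2 u4).symm
  have swp : ∀ x y, Lq F ρ (sg Q (b x) (b y)) = Lq F ρ (sg Q (b y) (b x)) := fun x y => by
    rw [sg_swap, Lq_smul (by simp)]
  have std : ∀ x y u v, y ≠ x → y ≠ σ x → v ≠ u → v ≠ σ u →
      Reach (Lq F ρ '' sgFam Q) (Lq F ρ (sg Q (b x) (b y))) (Lq F ρ (sg Q (b u) (b v))) := by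
    intro x y u v h1 h2 h3 h4
    obtain ⟨w, w1, w2, w3, w4⟩ := av x (σ x) u (σ u)
    refine (same x y w h1 h2 w1 w2).trans (Reach.trans ?_ (same u w v w3 w4 h3 h4))
    rw [swp x, swp u]
    exact same w x u w1.symm (mt sw.1 w2) w3.symm (mt sw.1 w4)
  have ex : ∀ s ∈ sgFam Q, ∃ x y, y ≠ x ∧ y ≠ σ x ∧
      Reach (Lq F ρ '' sgFam Q) (Lq F ρ s) (Lq F ρ (sg Q (b x) (b y))) := by
    intro s hs
    by_contra h
    push Not at h
    have hc : ∀ x y, y ≠ x → y ≠ σ x → s (b x) = polar Q (s (b (σ y))) (b y) • b x -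
        polar Q (s (b (σ y))) (b x) • b y := fun x y h1 h2 => by
      have e : s * sg Q (b x) (b y) = sg Q (b x) (b y) * s := by
        by_contra e
        exact h x y h1 h2 (U.reach_of_ne hs (mem x y h1 h2) e)
      have := LinearMap.congr_fun e (b (σ y))
      simpa [sg_app, hB, inj, h1] using this
    refine U.fam.ne s hs (hsp s fun x => ?_)
    obtain ⟨y, h1, h2, -, -⟩ := av x (σ x) x x
    have e1 := hc x y h1 h2
    have e2 := hc x (σ y) (mt (fun h => sw.1 h.symm) h2) (mt inj.1 h1)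
    generalize polar Q (s (b (σ y))) (b y) = α at e1
    generalize polar Q (s (b (σ y))) (b x) = β at e1
    generalize polar Q (s (b (σ (σ y)))) (b (σ y)) = α' at e2
    generalize polar Q (s (b (σ (σ y)))) (b x) = β' at e2
    have e3 := congrArg (polar Q (b (σ y))) (e1.symm.trans e2)
    have hβ : β = 0 := by
      revert e3
      qsimp
      simp [hB, inj, h1, hQ]
    rw [hβ, zero_smul, sub_zero] at e1
    have e4 := LinearMap.congr_fun (U.fam.sq s hs) (b x)
    rw [End.mul_apply, e1, map_smul, e1, smul_smul, LinearMap.zero_apply, smul_eq_zero,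
      mul_self_eq_zero] at e4
    rw [e1, e4.resolve_right (b0 x), zero_smul]
  obtain ⟨x, y, h1, h2, h3⟩ := ex s hs
  obtain ⟨u, v, h4, h5, h6⟩ := ex t ht
  exact (h3.trans (std x y u v h1 h2 h4 h5)).trans h6.symm

end Olike

end Cfsg.Agent.H8
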