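import Cfsg.Agent.H8.Lin
import Cfsg.Agent.H6.Iwa

/-! Transvection subgroups of linear groups. -/

set_option autoImplicit false

namespace Cfsg.Agent.H8

open Matrix MatrixGroups QP H6 H6.FTPG

variable {ι : Type*} [Fintype ι] [DecidableEq ι] {F : Type*} [Field F]

omit [DecidableEq ι] in
theorem vv_mul (a f b g : ι → F) : vecMulVec a f * vecMulVec b g = (f ⬝ᵥ b) • vecMulVec a g := by
  rw [vecMulVec_mul_vecMulVec, vecMulVec_smul]

omit [DecidableEq ι] in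
theorem vv_mul3 (a f b g : ι → F) :
    vecMulVec a f * vecMulVec b g * vecMulVec a f = ((f ⬝ᵥ b) * (g ⬝ᵥ a)) • vecMulVec a f := by
  rw [vv_mul, smul_mul_assoc, vv_mul, smul_smul]

omit [DecidableEq ι] in
theorem vv_conj (A B : Matrix ι ι F) (a f : ι → F) :
    A * vecMulVec a f * B = vecMulVec (A *ᵥ a) (f ᵥ* B) := by
  rw [mul_vecMulVec, vecMulVec_mul]

omit [Fintype ι] [DecidableEq ι] in
theorem vv_ne_zero {a f : ι → F} (ha : a ≠ 0) (hf : f ≠ 0) : vecMulVec a f ≠ 0 := by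
  rw [Ne, vecMulVec_eq_zero]
  tauto

omit [Fintype ι] in
theorem tv_smul_eq (a f : ι → F) (c : F) : tv a (c • f) = 1 + c • vecMulVec a f := by
  rw [tv, vecMulVec_smul]

theorem exists_dot_two {a b : ι → F} (W : Submodule F (ι → F)) (ha : a ∉ W) (hb : b ∉ W) :
    ∃ v, a ⬝ᵥ v ≠ 0 ∧ b ⬝ᵥ v ≠ 0 ∧ ∀ w ∈ W, w ⬝ᵥ v = 0 := by
  obtain ⟨u, hu, hu'⟩ := exists_dot_of_notMem W ha
  obtain ⟨v, hv, hv'⟩ := exists_dot_of_notMem W hb
  by_cases h1 : b ⬝ᵥ u = 0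
  · by_cases h2 : a ⬝ᵥ v = 0
    · exact ⟨u + v, by simp [hu, h2], by simp [hv, h1], fun w hw => by simp [hu' w hw, hv' w hw]⟩
    · exact ⟨v, h2, by simp [hv], hv'⟩
  · exact ⟨u, by simp [hu], h1, hu'⟩

variable (ι F) in
/-- all rank one square zero matrices -/
def slFam : Set (Matrix ι ι F) := {s | ∃ a f : ι → F, a ≠ 0 ∧ f ≠ 0 ∧ f ⬝ᵥ a = 0 ∧ s = vecMulVec a f}

omit [DecidableEq ι] in
theorem slFam_tri {s t : Matrix ι ι F} (hs : s ∈ slFam ι F) (ht : t ∈ slFam ι F) : s * t = t * s ∨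
    (∃ c : F, c ≠ 0 ∧ s * t * s = c • s ∧ t * s * t = c • t) ∨
    (s * t * s = 0 ∧ t * s * t = 0 ∧ s * t - t * s ∈ slFam ι F) := by
  obtain ⟨a, f, ha, hf, hfa, rfl⟩ := hs
  obtain ⟨b, g, hb, hg, hgb, rfl⟩ := ht
  by_cases h1 : f ⬝ᵥ b = 0 <;> by_cases h2 : g ⬝ᵥ a = 0
  · left
    simp only [vv_mul, h1, h2, zero_smul]
  · right; right
    refine ⟨by simp only [vv_mul3, h1, zero_mul, zero_smul],
      by simp only [vv_mul3, h1, mul_zero, zero_smul], (-(g ⬝ᵥ a)) • b, f,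
      smul_ne_zero (neg_ne_zero.2 h2) hb, hf, by rw [dotProduct_smul, h1, smul_zero], ?_⟩
    rw [vv_mul, vv_mul, h1, smul_vecMulVec]
    module
  · right; right
    refine ⟨by simp only [vv_mul3, h2, mul_zero, zero_smul],
      by simp only [vv_mul3, h2, zero_mul, zero_smul], (f ⬝ᵥ b) • a, g,
      smul_ne_zero h1 ha, hg, by rw [dotProduct_smul, h2, smul_zero], ?_⟩
    rw [vv_mul, vv_mul, h2, smul_vecMulVec]
    module
  · right; left
    exact ⟨_, mul_ne_zero h1 h2, vv_mul3 .., by rw [vv_mul3, mul_comm]⟩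

theorem slFam_conj {H : Type*} [Group H] (ρ : H →* Matrix ι ι F) {s : Matrix ι ι F}
    (hs : s ∈ slFam ι F) (g : H) : ρ g * s * ρ g⁻¹ ∈ slFam ι F := by
  obtain ⟨a, f, ha, hf, hfa, rfl⟩ := hs
  refine ⟨_, _, rho_mulVec_ne_zero g ha, rho_vecMul_ne_zero g⁻¹ hf, ?_, vv_conj ..⟩
  rw [← dotProduct_mulVec, inv_mulVec_mulVec, hfa]

theorem sl_fam : Fam F (slRho ι F) (slFam ι F) where
  inj := slSetup.inj
  sq := by
    rintro _ ⟨a, f, -, -, h, rfl⟩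
    rw [vv_mul, h, zero_smul]
  ne := by
    rintro _ ⟨a, f, ha, hf, -, rfl⟩
    exact vv_ne_zero ha hf
  full := by
    rintro _ ⟨a, f, -, -, h, rfl⟩ c
    exact ⟨⟨tv a (c • f), det_tv (by rw [smul_dotProduct, h, smul_zero])⟩, tv_smul_eq ..⟩
  conj := fun _ hs g => slFam_conj _ hs g
  tri := fun _ hs _ ht => slFam_tri hs ht

theorem sl_gen [Nontrivial ι] : (⨆ A ∈ Lq F (slRho ι F) '' slFam ι F, A) = ⊤ := by
  rw [eq_top_iff, ← sl_tvSub, tvSub, Subgroup.closure_le]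
  intro t ht
  rcases TvOr1.cases ht with h | ⟨a, f, ha, hf, hfa, e⟩
  · rw [slSetup.inj (h.trans (map_one _).symm)]
    exact Subgroup.one_mem _
  · have hs : vecMulVec a f ∈ slFam ι F := ⟨a, f, ha, hf, hfa, rfl⟩
    exact le_gen_of_mem (S := Lq F (slRho ι F) '' slFam ι F) ⟨_, hs, rfl⟩
      ((mem_Lq (sl_fam.sq _ hs)).2 ⟨1, by rw [e, one_smul, tv]⟩)

theorem sl_ro {a f b g : ι → F} (ha : a ≠ 0) (hf : f ≠ 0) (hfa : f ⬝ᵥ a = 0) (hgb : g ⬝ᵥ b = 0)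
    (h1 : f ⬝ᵥ b ≠ 0) (h2 : g ⬝ᵥ a ≠ 0) :
    Reach (Lq F (slRho ι F) '' slFam ι F) (Lq F (slRho ι F) (vecMulVec a f))
      (Lq F (slRho ι F) (vecMulVec b g)) := by
  have hs : vecMulVec a f ∈ slFam ι F := ⟨a, f, ha, hf, hfa, rfl⟩
  have ht : vecMulVec b g ∈ slFam ι F :=
    ⟨b, g, by rintro rfl; simp at h1, by rintro rfl; simp at h2, hgb, rfl⟩
  exact Reach.single ⟨_, hs, rfl⟩ ⟨_, ht, rfl⟩
    (sl_fam.ro hs ht (mul_ne_zero h1 h2) (vv_mul3 ..) (by rw [vv_mul3, mul_comm]))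

theorem sl_conn {s t : Matrix ι ι F} (hs : s ∈ slFam ι F) (ht : t ∈ slFam ι F) :
    Reach (Lq F (slRho ι F) '' slFam ι F) (Lq F (slRho ι F) s) (Lq F (slRho ι F) t) := by
  obtain ⟨a, f, ha, hf, hfa, rfl⟩ := hs
  obtain ⟨b, g, hb, hg, hgb, rfl⟩ := ht
  obtain ⟨c, h1, h2, -⟩ := exists_dot_two (⊥ : Submodule F (ι → F)) hf hg
  have n1 : a ∉ Submodule.span F {c} := fun h => by
    obtain ⟨x, rfl⟩ := Submodule.mem_span_singleton.1 h
    rw [dotProduct_smul, smul_eq_mul, mul_eq_zero] at hfa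
    rcases hfa with rfl | hfa
    · simp at ha
    · exact h1 hfa
  have n2 : b ∉ Submodule.span F {c} := fun h => by
    obtain ⟨x, rfl⟩ := Submodule.mem_span_singleton.1 h
    rw [dotProduct_smul, smul_eq_mul, mul_eq_zero] at hgb
    rcases hgb with rfl | hgb
    · simp at hb
    · exact h2 hgb
  obtain ⟨h, h3, h4, h5⟩ := exists_dot_two _ n1 n2
  have h6 : h ⬝ᵥ c = 0 := by rw [dotProduct_comm]; exact h5 c (Submodule.mem_span_singleton_self c)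
  rw [dotProduct_comm] at h3 h4
  exact (sl_ro ha hf hfa h6 h1 h3).trans (sl_ro hb hg hgb h6 h2 h4).symm

theorem single_mem_slFam {i j : ι} (h : i ≠ j) : single i j (1 : F) ∈ slFam ι F :=
  ⟨Pi.single i 1, Pi.single j 1, by simp, by simp, by simp [h.symm],
    single_eq_single_vecMulVec_single i j⟩

end Cfsg.Agent.H8
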