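import Cfsg.Agent.H8.ZD4

/-! Root involutions: local calculus for the root structure theorem. -/

set_option autoImplicit false

namespace Cfsg.Agent.H8.RS

open RI ZD

variable {G : Type*} [Group G] {D : Set G} {a b c d e f g p q s t u v w x y z : G}

/-- the commutator of two involutions -/
def K (a b : G) : G := a * b * (a * b)

/-- collinear members -/
structure Co (D : Set G) (a b : G) : Prop where
  l : a ∈ D
  r : b ∈ D
  c : a * b = b * a
  m : a * b ∈ D

/-- same commuting members -/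
def Ee (D : Set G) (a b : G) : Prop := ∀ g ∈ D, g * a = a * g ↔ g * b = b * g

theorem Co.symm (h : Co D a b) : Co D b a := ⟨h.r, h.l, h.c.symm, h.c ▸ h.m⟩

theorem Ee.refl (a : G) : Ee D a a := fun _ _ => Iff.rfl
theorem Ee.symm (h : Ee D a b) : Ee D b a := fun g hg => (h g hg).symm
theorem Ee.trans (h : Ee D a b) (h' : Ee D b c) : Ee D a c := fun g hg => (h g hg).trans (h' g hg)

theorem comm_K (h1 : x * a = a * x) (h2 : x * b = b * x) : x * K a b = K a b * x :=
  have k : Commute x (a * b) := Commute.mul_right h1 h2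
  (k.mul_right k).eq

theorem comm_mul (h1 : x * a = a * x) (h2 : x * b = b * x) : x * (a * b) = a * b * x :=
  (Commute.mul_right h1 h2).eq

theorem comm_of_mul (h1 : x * a = a * x) (h2 : x * (a * b) = a * b * x) : x * b = b * x := by
  rw [← mul_assoc, h1, mul_assoc, mul_assoc] at h2
  exact mul_left_cancel h2

theorem comm_of_mul' (h1 : x * b = b * x) (h2 : x * (a * b) = a * b * x) : x * a = a * x := by
  rw [mul_assoc, ← h1, ← mul_assoc, ← mul_assoc] at h2
  exact mul_right_cancel h2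

theorem K_eq_one (aa : a * a = 1) (bb : b * b = 1) (h : a * b = b * a) : K a b = 1 := by
  simp only [K, mul_assoc, cc h.symm, ii aa, bb]

theorem K_one_l (aa : a * a = 1) : K 1 a = 1 := by simp [K, aa]
theorem K_one_r (aa : a * a = 1) : K a 1 = 1 := by simp [K, aa]

theorem comm_of_sq (aa : a * a = 1) (bb : b * b = 1) (h : a * b * (a * b) = 1) : a * b = b * a := by
  have := congrArg (fun z => a * z * b) h
  simpa only [mul_assoc, ii aa, bb, mul_one] using this.symm

theorem conj_K (aa : a * a = 1) (b : G) : b * a * b = a * K a b := by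
  simp only [K, mul_assoc, ii aa]

theorem conj_K' (aa : a * a = 1) (b x : G) : b * (a * (b * x)) = a * (K a b * x) := by
  simp only [K, mul_assoc, ii aa]

theorem K_of_conj (aa : a * a = 1) (h : b * a * b = a * c) : K a b = c :=
  mul_left_cancel ((conj_K aa b).symm.trans h)

/-- the Jacobi type identity -/
theorem jac (aa : a * a = 1) (bb : b * b = 1) (uu : u * u = 1) (ss : s * s = 1) (tt : t * t = 1)
    (h0 : b * a * b = a * c) (h1 : u * a * u = a * s) (h2 : u * b * u = b * t)
    (h3 : u * c * u = c * v) (st : s * t = t * s) (ct : c * t = t * c) (cs : c * s = s * c)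
    (vt : v * t = t * v) (bt : b * t = t * b) (as : a * s = s * a) (ac : a * c = c * a) :
    K s b = K a t * v := by
  have e1 : b * t * (a * s) * (b * t) = a * s * (c * v) := by
    rw [← h1, ← h2, ← h3]
    have := congrArg (fun z => u * z * u) h0
    simpa only [mul_assoc, ii uu] using this
  have e2 : b * (a * s) * b = t * (a * s * (c * v)) * t := by
    rw [← e1]; simp only [mul_assoc, cc bt.symm, ii tt, tt, mul_one]
  have e3 : b * (a * s) * b = a * c * (s * K s b) := by
    rw [← h0, ← conj_K ss]; simp only [mul_assoc, ii bb]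
  have e4 : t * (a * s * (c * v)) * t = a * K a t * (s * (c * v)) := by
    rw [← conj_K aa]; simp only [mul_assoc, cc st, cc ct, vt]
  have k1 := comm_K as.symm st
  have k2 := comm_K ac.symm ct
  have := e3.symm.trans (e2.trans e4)
  simp only [mul_assoc, mul_right_inj, ← cc k1, ← cc k2, cc cs] at this
  exact this

variable (hD : IsRootInvolutionSet D)
include hD

theorem co_of (ha : a ∈ D) (hb : b ∈ D) (h : a * b ∈ D) : Co D a b :=
  ⟨ha, hb, comm_of_sq (sq hD ha) (sq hD hb) (sq hD h), h⟩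

theorem Co.ne (h : Co D a b) : a ≠ b := fun e => RI.ne_one hD h.m (by rw [← e, sq hD h.l])

theorem Co.mul_l (h : Co D a b) : Co D (a * b) a :=
  co_of hD h.m h.l (by rw [h.c, mul_assoc, sq hD h.l, mul_one]; exact h.r)

theorem Co.mul_r (h : Co D a b) : Co D (a * b) b :=
  co_of hD h.m h.r (by rw [mul_assoc, sq hD h.r, mul_one]; exact h.l)

theorem Co.nod (h : Co D a b) (hc : c ∈ D) (e : c * b = b * c) : ¬ Od a c :=
  not_od_of_collinear hD h.r h.l hc h.c.symm (h.c ▸ h.m) e.symm

theorem Co.conj (h : Co D a b) (g : G) : Co D (g * a * g⁻¹) (g * b * g⁻¹) :=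
  co_of hD (hD.conj_mem a h.l g) (hD.conj_mem b h.r g) (by
    rw [conj_mul]; exact hD.conj_mem _ h.m g)

theorem fo_of (ha : a ∈ D) (hb : b ∈ D) (hn : ¬ Od a b) (hc : a * b ≠ b * a) : Fo a b :=
  ((RI.tri hD ha hb).resolve_left hc).resolve_left hn

theorem nod_of_comm (ha : a ∈ D) (hb : b ∈ D) (h : a * b = b * a) : ¬ Od a b :=
  fun ho => ho.not_comm hD ha hb h

theorem fo_of_K (ha : a ∈ D) (hb : b ∈ D) (hn : ¬ Od a b) (hc : K a b ≠ 1) : Fo a b :=
  fo_of hD ha hb hn fun e => hc (K_eq_one (sq hD ha) (sq hD hb) e)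

theorem co_l (ha : a ∈ D) (hb : b ∈ D) (h : Fo a b) : Co D (K a b) a :=
  Co.symm ⟨ha, h.mem hD ha hb, h.comm_left hD ha hb, h.mul_left_mem hD ha hb⟩

theorem co_r (ha : a ∈ D) (hb : b ∈ D) (h : Fo a b) : Co D (K a b) b :=
  Co.symm ⟨hb, h.mem hD ha hb, h.comm_right hD ha hb, h.mul_right_mem hD ha hb⟩

theorem K_cases (ha : a ∈ D) (hb : b ∈ D) (hn : ¬ Od a b) : K a b = 1 ∨ Fo a b :=
  (em _).imp_right (fo_of_K hD ha hb hn)

theorem K_sq (ha : a ∈ D) (hb : b ∈ D) (hn : ¬ Od a b) : K a b * K a b = 1 :=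
  (K_cases hD ha hb hn).elim (fun e => by rw [e, mul_one]) fun e => e.pow

theorem K_l (ha : a ∈ D) (hb : b ∈ D) (hn : ¬ Od a b) : a * K a b = K a b * a :=
  (K_cases hD ha hb hn).elim (fun e => by rw [e, mul_one, one_mul]) fun e => e.comm_left hD ha hb

theorem K_r (ha : a ∈ D) (hb : b ∈ D) (hn : ¬ Od a b) : b * K a b = K a b * b :=
  (K_cases hD ha hb hn).elim (fun e => by rw [e, mul_one, one_mul]) fun e => e.comm_right hD ha hb

theorem K_swap (ha : a ∈ D) (hb : b ∈ D) (hn : ¬ Od a b) : K b a = K a b := by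
  rcases RI.tri hD ha hb with h | h | h
  · rw [K_eq_one (sq hD ha) (sq hD hb) h, K_eq_one (sq hD hb) (sq hD ha) h.symm]
  · exact absurd h hn
  · exact h.swap hD ha hb

theorem od_of_three (ha : a ∈ D) (h : orderOf (a * b) = 3) : Od a b :=
  ⟨fun e => by rw [← e, RI.sq hD ha, orderOf_one] at h; exact absurd h (by decide), by rw [h]; decide⟩

theorem mkP (h : Co D a b) (h' : Fo b x) : P D a x b := ⟨h.r, h.c, h.m, h'⟩

theorem P_of (h : Co D b a) (hx : x ∈ D) (ho : Od a x) (hn : ¬ Od b x) : P D a x b :=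
  mkP hD h.symm (L1 hD h.r h.l hx h.c.symm (h.c ▸ h.m) ho hn).1

theorem P_co (ha : a ∈ D) (h : P D a x b) : Co D b a := Co.symm ⟨ha, h.1, h.2.1, h.2.2.1⟩

theorem psi (ha : a ∈ D) (hx : x ∈ D) (h : Od a x) (hb : P D a x b) : P D x a (K b x) :=
  hb.psi hD ha hx h

theorem inj (ha : a ∈ D) (hx : x ∈ D) (h : Od a x) (hb : P D a x b) (hc : P D a x c)
    (e : K b x = K c x) : b = c := hb.inj hD ha hx h hc e

/-- for a pair of order three the two transfer maps are mutually inverse -/
theorem s3 (hb : b ∈ D) (hy : y ∈ D) (h3 : orderOf (b * y) = 3) (hp : P D b y p) :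
    K (K p y) b = p := by
  have ho := od_of_three hD hb h3
  have hq := psi hD hb hy ho hp
  have hw := psi hD hy hb ho.symm hq
  refine inj hD hb hy ho hw hp ?_
  have bb := sq hD hb
  have yy := sq hD hy
  have e1 := conj_K' (sq hD hp.1) y
  have e2 := conj_K' (sq hD hq.1) b
  have c1 := (co_l hD hq.1 hb hq.2.2.2).c
  have e3 := hp.2.1
  have e4 := hq.2.1
  have qq := sq hD hq.1
  have ww := sq hD hw.1
  generalize K p y = q at *
  generalize K q b = w at *
  have br : ∀ x, y * (b * (y * x)) = b * (y * (b * x)) := fun x => by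
    have := pow_orderOf_eq_one (b * y)
    rw [h3] at this
    have := congrArg (fun z => y * (b * (y * x)) * (x⁻¹ * (y * (b * (y * (z * (y * (b * (y * x)))))))))  this
    simpa only [pow_succ, pow_zero, one_mul, mul_assoc, ii bb, ii yy, mul_inv_cancel_left,
      inv_mul_cancel, mul_one] using this.symm
  have k : y * (b * (y * (p * (y * (b * (y * 1)))))) = b * (y * (b * (p * (b * (y * (b * 1)))))) := by
    rw [br, br 1]
  have l1 : y * (b * (y * (p * (y * (b * (y * 1)))))) = p * (y * (w * y)) := by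
    rw [e1, cc e3, e2, ← ii yy (q * _), e1, ← cc e4.symm, ii qq, mul_one]
  have l2 : b * (y * (b * (p * (b * (y * (b * 1)))))) = p * (q * w) := by
    rw [← cc e3 (y * _), ii bb, e1, cc e3, e2, mul_one]
  have := mul_left_cancel (l1.symm.trans (k.trans l2))
  rw [K, mul_assoc, this, ← mul_assoc, c1, mul_assoc, ww, mul_one]

theorem Ee.od (h : Ee D a b) (ha : a ∈ D) (hb : b ∈ D) (hx : x ∈ D) (ho : Od a x) : Od b x :=
  od_of_cm_eq hD hb ha (fun g hg => (h g hg).1) (fun g hg => (h g hg).2) hx ho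

theorem Ee.fo (h : Ee D a b) (ha : a ∈ D) (hb : b ∈ D) (hx : x ∈ D) (ho : Fo a x) : Fo b x :=
  fo_of hD hb hx (fun e => (h.symm.od hD hb ha hx e).not_fo ho)
    fun e => ho.not_comm hD ha hx ((h x hx).2 e.symm).symm

theorem Ee.conj (h : Ee D a b) (g : G) : Ee D (g * a * g⁻¹) (g * b * g⁻¹) := fun x hx => by
  have := h _ (hD.conj_mem x hx g⁻¹)
  have k : ∀ a : G, x * (g * a * g⁻¹) = g * a * g⁻¹ * x ↔ g⁻¹ * x * g⁻¹⁻¹ * a = a * (g⁻¹ * x * g⁻¹⁻¹) :=
    fun a => ⟨fun e => by
      calc _ = g⁻¹ * (x * (g * a * g⁻¹)) * g := by group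
        _ = _ := by rw [e]; group, fun e => by
      calc _ = g * (g⁻¹ * x * g⁻¹⁻¹ * a) * g⁻¹ := by group
        _ = _ := by rw [e]; group⟩
  rw [k, k, this]

/-- `u` is collinear with `b` and has commutator `b` with `a` -/
structure Y (D : Set G) (b a u : G) : Prop where
  co : Co D u b
  fo : Fo a u
  eq : K a u = b

theorem three' (hab : Co D a b) (hu : Y D b a u) (hw : w ∈ D) (h : Fo b w) (e : K b w = a) :
    orderOf (u * w) = 3 :=
  three hD hab.l hab.r hu.co.l hw hab.c (by rw [conj_K (sq hD hab.l), hu.eq]) hu.co.c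
    (by rw [conj_K (sq hD hab.r), e, hab.c]) (e ▸ K_r hD hab.r hw fun o => o.not_fo h)

/-- the standing hypotheses -/
structure NC (D : Set G) : Prop where
  rt : IsRootInvolutionSet D
  cl : ∀ a ∈ D, ∀ b ∈ D, ∃ g : G, b = g * a * g⁻¹
  ni : ∀ a ∈ D, RI.NI D a

omit hD

variable [Finite G] (H : NC D)
include H

theorem es (h : Co D a b) (hn : ¬ Ee D a b) : ∃ u, Y D b a u := by
  have hD := H.rt
  obtain ⟨u, hu, k1, k2, k3⟩ := exists_special hD H.cl h.l h.r h.c h.m fun e => hn fun g hg =>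
    ⟨cm_of_odd_eq hD H.cl H.ni h.l h.r e hg, cm_of_odd_eq hD H.cl H.ni h.r h.l e.symm hg⟩
  have e := K_of_conj (sq hD h.l) k2
  exact ⟨u, (e ▸ co_r hD h.l hu k1.symm).symm, k1.symm, e⟩

theorem n1 (hx : Co D x d) (hv : v ∈ D) (h0 : ¬ Od d v) (hn : ¬ Od x v) : x * K d v = K d v * x := by
  have hD := H.rt
  by_contra hw
  have hd := hx.r
  have he := hx.l
  have h : Fo d v := fo_of_K hD hd hv h0 fun e => hw (by rw [e, mul_one, one_mul])
  have h1 : Fo x v := fo_of hD he hv hn fun e => hw (comm_K hx.c e)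
  have h2 : ¬ Od (x * d) v := fun o => by
    have := (L1 hD hx.m he hv (hx.mul_l hD).c (hx.mul_l hD).m o hn).2
    rw [hx.c, mul_assoc, sq hD he, mul_one] at this
    exact this.not_fo h
  have cw := co_l hD hd hv h
  have cw' := co_l hD he hv h1
  have vw := K_r hD hd hv h0
  have vw' := K_r hD he hv hn
  have q1 := K_sq hD hx.m hv h2
  have q2 := K_r hD hx.m hv h2
  have e1 := conj_K' (sq hD hd) v
  have e2 := conj_K' (sq hD he) v
  have h3 : Fo (K d v) x := fo_of hD cw.l he (fun o => hx.nod hD cw.l cw.c o.symm) fun e => hw e.symm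
  have cc1 := co_l hD cw.l he h3
  have cc2 := co_r hD cw.l he h3
  have e3 := conj_K' (sq hD cw.l) x
  have dd := sq hD hd
  have xx := sq hD he
  have vv := sq hD hv
  have xd := hx.c
  have hK : K (x * d) v = d * (x * (v * (d * (v * (v * (x * (v * 1))))))) := by
    simp only [K, mul_assoc, ii vv, mul_one, cc xd]
  have hK' : K (x * d) v = d * (x * (v * (x * (v * (v * (d * (v * 1))))))) := by
    simp only [K, mul_assoc, ii vv, mul_one, cc xd]
  rw [e1, e2] at hK hK'
  generalize K (x * d) v = k at *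
  generalize K d v = w at *
  generalize K x v = w' at *
  generalize K w x = c at *
  have ww := sq hD cw.l
  have ww' := sq hD cw'.l
  have c2 := sq hD cc1.l
  have j1 : k = w * c * w' := by
    rw [hK, ← cc xd, ii dd, e3, mul_one, mul_assoc]
  have j2 : w * w' = w' * w := by
    have : x * w * x * w' = w' * (x * w * x) := comm_of_sq (by simp only [mul_assoc, ii xx, ii ww, xx]) ww'
      (by simpa only [j1, mul_assoc, e3] using q1)
    have := congrArg (fun z => x * z * x) this
    simpa only [mul_assoc, ii xx, xx, mul_one, cc cw'.c, cw'.c] using this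
  have j3 : w' * d * w' = d * c := by
    rw [j1, ii xx] at hK'
    have := congrArg (fun z => d * z * w) hK'
    simp only [mul_assoc, ii dd, mul_one, ww, ← j2, cc cc1.c, ii ww] at this
    rw [mul_assoc, ← mul_assoc w', ← this]
    simp only [mul_assoc, ww', mul_one]
  have j4 : v * c = c * v := comm_of_mul vw (comm_of_mul' vw' (j1 ▸ q2))
  have j5 := K_of_conj dd j3
  have h4 : Fo d w' := fo_of_K hD hd cw'.l (hx.symm.nod hD cw'.l cw'.c) (j5 ▸ RI.ne_one hD cc1.l)
  have cc3 : Co D c d := j5 ▸ co_l hD hd cw'.l h4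
  have cc4 : Co D c w' := j5 ▸ co_r hD hd cw'.l h4
  obtain ⟨u, hu⟩ := es H cc3 fun e => h4.not_comm hD hd cw'.l ((e w' cw'.l).1 cc4.c.symm).symm
  have t1 := three' hD cc3 hu cw'.l h4 j5
  rw [orderOf_mul_comm'] at t1
  have p1 := P_of hD cw'.symm hu.co.l (od_of_three hD cw'.l t1) (hx.nod hD hu.co.l hu.co.c)
  have s1 := s3 hD cw'.l hu.co.l t1 p1
  have p2 := psi hD cw'.l hu.co.l (od_of_three hD cw'.l t1) p1
  have r1 := co_l hD he hu.co.l p1.2.2.2
  have f1 := conj_K' xx u
  have f2 := conj_K' (sq hD p2.1) w'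
  have f3 := conj_K' c2 u
  rw [s1] at f2
  rw [hu.eq] at f3
  have uu := sq hD hu.co.l
  have m1 := conj_mem hD (conj_mem hD (conj_mem hD hx.m hu.co.l) cw'.l) hu.co.l
  have ru := p2.2.1
  have rw' : K w' (K x u) = x := (K_swap hD p2.1 cw'.l fun o => o.not_fo p2.2.2.2).trans s1
  have fo' := p2.2.2.2
  generalize K x u = r at *
  have m2 : u * (w' * (u * (x * d) * u) * w') * u = r * c := by
    calc _ = u * (w' * (u * (x * (u * (u * (d * u))))) * w') * u := by simp only [mul_assoc, ii uu]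
      _ = u * (w' * (x * (r * (w' * (w' * (d * w')))))) * u := by
        rw [f1]; simp only [mul_assoc, ii ww', cc hu.co.c, uu, mul_one]
      _ = u * (r * (d * (c * (u * 1)))) := by
        rw [← cc cw'.c.symm, f2, ← mul_assoc w', j3]
        simp only [mul_assoc, cc r1.c.symm, ii xx, mul_one]
      _ = _ := by rw [cc ru, cc hu.co.c, f3, mul_one, cc3.c, ii dd]
  exact (co_of hD r1.l cc1.l (m2 ▸ m1)).nod hD hv j4 (od_of_three hD r1.l (by
    rw [orderOf_mul_comm']
    exact three hD he cw'.l hv r1.l cw'.c.symm (by simpa only [mul_one, mul_assoc] using e2 1) vw'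
      (by rw [conj_K ww', rw', cw'.c]) r1.c))

/-- the twin lemma -/
theorem twin (ha : Co D a d) (hb : Co D b d) (h : Fo a b) (hy : Y D a (K a b) y) :
    orderOf (b * y) = 3 ∧ Fo d y ∧ K (K d y) b = d ∧ Co D (K a b) (K d y) ∧ Co D (K a b * K d y) d := by
  have hD := H.rt
  have ca := co_l hD ha.l hb.l h
  have cb := co_r hD ha.l hb.l h
  have t1 := three' hD ca hy hb.l h rfl
  rw [orderOf_mul_comm'] at t1
  have ho := od_of_three hD hb.l t1
  have p1 := P_of hD hb.symm hy.co.l ho fun o => hy.co.nod hD ha.r ha.c.symm o.symm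
  have s1 := s3 hD hb.l hy.co.l t1 p1
  have p2 := psi hD hb.l hy.co.l ho p1
  have cd := co_l hD ha.r hy.co.l p1.2.2.2
  have e1 := conj_K' (sq hD ha.r) y
  have e2 := conj_K' (sq hD ca.l) y
  have e3 := conj_K' (sq hD ha.l) b
  have e4 := conj_K' (sq hD p2.1) b
  have ac' : a * K d y = K d y * a := comm_K ha.c hy.co.c.symm
  have m1 := conj_mem hD (conj_mem hD ha.m hb.l) hy.co.l
  have m2 := conj_mem hD (conj_mem hD (conj_mem hD ha.m hy.co.l) hb.l) hy.co.l
  have dc : d * K a b = K a b * d := comm_K ha.c.symm hb.c.symm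
  rw [hy.eq] at e2
  rw [s1] at e4
  have yc := p2.2.1
  refine ⟨t1, p1.2.2.2, s1, ?_⟩
  generalize K a b = c at *
  generalize K d y = c' at *
  have aa := sq hD ha.l
  have bb := sq hD hb.l
  have dd := sq hD ha.r
  have yy := sq hD hy.co.l
  have cc' : c * c' = c' * c := by
    have k : b * (a * (b * (b * (c' * (b * 1))))) = b * (c' * (b * (b * (a * (b * 1))))) := by
      simp only [ii bb, cc ac']
    rw [e3, e4, e4, e3] at k
    simp only [mul_one, ← cc ha.c, dc, ← cc ac', mul_right_inj] at k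
    rw [← mul_assoc, ← mul_assoc] at k
    exact mul_right_cancel k
  have k1 : y * (b * (a * d) * b) * y = c * c' * d := by
    calc _ = y * (b * (a * (b * d))) * y := by simp only [mul_assoc, hb.c]
      _ = a * (y * (c * (y * (y * (d * (y * 1)))))) := by
        rw [e3]; simp only [mul_assoc, ii yy, cc hy.co.c, mul_one]
      _ = _ := by rw [e2, e1, cc ca.c.symm, ii aa, mul_one, ← cd.c, mul_assoc]
  have k2 : y * (b * (y * (a * d) * y) * b) * y = c * c' := by
    calc _ = y * (b * (a * (y * (d * (y * 1)))) * b) * y := by simp only [mul_assoc, cc hy.co.c, mul_one]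
      _ = y * (b * (a * (b * (d * (b * (c' * (b * 1))))))) * y := by
        rw [e1]; simp only [mul_assoc, mul_one, cc hb.c, ii bb]
      _ = a * (y * (c * (y * c'))) := by
        rw [e3, e4]; simp only [mul_assoc, mul_one, ← cc cd.c, dd, cc hy.co.c, yc]
      _ = _ := by rw [e2, cc ca.c.symm, ii aa]
  exact ⟨co_of hD ca.l p2.1 (k2 ▸ m2), co_of hD (k2 ▸ m2) ha.r (k1 ▸ m1)⟩

theorem jac' (ha : a ∈ D) (hb : b ∈ D) (hu : u ∈ D) (h : Fo a b) (h1 : ¬ Od a u) (h2 : ¬ Od b u)
    (h3 : ¬ Od (K a b) u) (h4 : Fo a u → ¬ Od (K a u) b) :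
    K (K a u) b = K a (K b u) * K (K a b) u := by
  have hD := H.rt
  have ca := co_l hD ha hb h
  have cb := co_r hD ha hb h
  have ct : K a b * K b u = K b u * K a b := n1 H cb hu h2 h3
  refine jac (sq hD ha) (sq hD hb) (sq hD hu) (K_sq hD ha hu h1) (K_sq hD hb hu h2)
    (conj_K (sq hD ha) b) (conj_K (sq hD ha) u) (conj_K (sq hD hb) u) (conj_K (sq hD ca.l) u) ?_ ct ?_
    (comm_K ct.symm (K_r hD hb hu h2).symm).symm (K_l hD hb hu h2) (K_l hD ha hu h1) ca.c.symm
  · rcases K_cases hD ha hu h1 with e | e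
    · rw [e, mul_one, one_mul]
    · rw [← K_swap hD hb hu h2]
      exact n1 H (co_r hD ha hu e) hb (fun o => h2 o.symm) (h4 e)
  · rcases K_cases hD ha hu h1 with e | e
    · rw [e, mul_one, one_mul]
    · exact (n1 H (co_l hD ha hu e) hb (fun o => o.not_fo h) (h4 e)).symm

theorem main1 (ha : Co D a d) (hb : Co D b d) (h : Fo a b) (hu : Y D d (K a b) u)
    (hα : K a (K b u) ≠ 1) : False := by
  have hD := H.rt
  have ca := co_l hD ha.l hb.l h
  have cb := co_r hD ha.l hb.l h
  have hu' := hu.co.l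
  have hd := ha.r
  have au : ¬ Od a u := ha.nod hD hu' hu.co.c
  have bu : ¬ Od b u := hb.nod hD hu' hu.co.c
  have cu : ¬ Od (K a b) u := fun o => o.not_fo hu.fo
  have fb : Fo b u := fo_of_K hD hb.l hu' bu fun e => hα (by rw [e, K_one_r (sq hD ha.l)])
  have tb := co_l hD hb.l hu' fb
  have tu := co_r hD hb.l hu' fb
  have td : d * K b u = K b u * d := comm_K hb.c.symm hu.co.c.symm
  have fa : Fo a (K b u) := fo_of_K hD ha.l tb.l (ha.nod hD tb.l td.symm) hα
  have αa := co_l hD ha.l tb.l fa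
  have αt := co_r hD ha.l tb.l fa
  have αd : d * K a (K b u) = K a (K b u) * d := comm_K ha.c.symm td
  have hJ := jac' H ha.l hb.l hu' h au bu cu fun e o =>
    hb.nod hD (co_l hD ha.l hu' e).l (comm_K ha.c.symm hu.co.c.symm).symm o.symm
  rw [hu.eq] at hJ
  obtain ⟨y, hy⟩ := es H ca fun e => h.not_comm hD ha.l hb.l ((e b hb.l).1 cb.c.symm).symm
  obtain ⟨t1, fd, -, -, -⟩ := twin H ha hb h hy
  have hy' := hy.co.l
  have ho := od_of_three hD hb.l t1
  have pd : P D b y d := mkP hD hb fd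
  have αy : ¬ Od (K a (K b u)) y := αa.nod hD hy' hy.co.c
  have αb : b * K a (K b u) = K a (K b u) * b := by
    rw [← K_swap hD ha.l tb.l fun o => o.not_fo fa]
    exact n1 H tb.symm ha.l (fun o => o.symm.not_fo fa) fun o => o.symm.not_fo h
  have αu : u * K a (K b u) = K a (K b u) * u := by
    rw [← K_swap hD ha.l tb.l fun o => o.not_fo fa]
    exact n1 H tu.symm ha.l (fun o => o.symm.not_fo fa) fun o => au o.symm
  have key : P D b y (K a (K b u)) := by
    by_cases e : K (K a u) b = 1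
    · have : K a (K b u) = d := by
        rw [e] at hJ
        rw [eq_inv_of_mul_eq_one_left hJ.symm, inv_eq hD hd]
      rw [this]; exact pd
    have fs : Fo a u := fo_of_K hD ha.l hu' au fun e' => e (by rw [e', K_one_l (sq hD hb.l)])
    have sa := co_l hD ha.l hu' fs
    have fβ := fo_of_K hD sa.l hb.l (fun o =>
      hb.nod hD sa.l (comm_K ha.c.symm hu.co.c.symm).symm o.symm) e
    have βb := co_r hD sa.l hb.l fβ
    generalize K (K a u) b = β at *
    generalize K a (K b u) = α at *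
    have e0 : β * d = α := by rw [hJ, mul_assoc, sq hD hd, mul_one]
    have βd : Co D β d := co_of hD βb.l hd (e0 ▸ αa.l)
    have βy : ¬ Od β y := fun o => hy.co.nod hD βb.l
      (by rw [hJ]; exact (comm_mul αa.c.symm ha.c).symm) o.symm
    have pβ := P_of hD βb hy' ho βy
    have c1 : β * K d y = K d y * β := n1 H βd hy' (fun o => o.not_fo fd) βy
    have q1 := psi hD hb.l hy' ho pβ
    have q2 := psi hD hb.l hy' ho pd
    have m := conj_mem hD (conj_mem hD hb.l q1.1) q2.1
    have e1 := conj_K (sq hD hb.l) (K β y)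
    have e2 := conj_K' (sq hD hb.l) (K d y)
    rw [K_swap hD q1.1 hb.l (fun o => o.not_fo q1.2.2.2), s3 hD hb.l hy' t1 pβ] at e1
    rw [K_swap hD q2.1 hb.l (fun o => o.not_fo q2.2.2.2), s3 hD hb.l hy' t1 pd] at e2
    rw [e1, mul_assoc, mul_assoc, c1, e2, ← βd.c, e0] at m
    exact P_of hD (co_of hD hb.l αa.l m).symm hy' ho αy
  have ho' : Od (K b u) y := by
    by_contra hn
    exact key.2.2.2.not_comm hD αa.l hy'
      (n1 H hy.co tb.l (fun o => o.not_fo fa) fun o => hn o.symm).symm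
  let S := {p // P D b y p ∧ P D (K b u) y p ∧ u * p = p * u}
  have step : ∀ p : S, P D b y (K (K p.1 y) (K b u)) ∧ P D (K b u) y (K (K p.1 y) (K b u)) ∧
      u * K (K p.1 y) (K b u) = K (K p.1 y) (K b u) * u := by
    rintro ⟨p, h1, h2, h3⟩
    have q1 := psi hD hb.l hy' ho h1
    have q2 := psi hD tb.l hy' ho' h2
    have q3 := psi hD hy' tb.l ho'.symm q2
    have s1 := s3 hD hb.l hy' t1 h1
    have c1 := co_l hD h1.1 hy' h1.2.2.2
    have n2 : ¬ Od (K p y) u := c1.nod hD hu' h3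
    have n3 : Fo (K p y) u → ¬ Od (K (K p y) u) b := fun e o =>
      (P_co hD hb.l h1).symm.nod hD (co_l hD q1.1 hu' e).l (comm_K c1.c.symm h3.symm).symm o.symm
    have := jac' H q1.1 hb.l hu' q1.2.2.2 n2 bu (by rw [s1]; exact nod_of_comm hD h1.1 hu' h3.symm) n3
    rw [s1, K_eq_one (sq hD h1.1) (sq hD hu') h3.symm, mul_one] at this
    have n4 : K (K (K p y) u) b ≠ 1 := this ▸ RI.ne_one hD q3.1
    have f1 : Fo (K p y) u := fo_of_K hD q1.1 hu' n2 fun e => n4 (by rw [e, K_one_l (sq hD hb.l)])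
    have l1 := (co_l hD q1.1 hu' f1).l
    refine ⟨mkP hD (this ▸ (co_r hD l1 hb.l (fo_of_K hD l1 hb.l (n3 f1) n4)).symm) q3.2.2.2, q3, ?_⟩
    rw [← K_swap hD q1.1 tb.l fun o => o.not_fo q2.2.2.2]
    exact n1 H tu.symm q1.1 (fun o => o.symm.not_fo q2.2.2.2) fun o => n2 o.symm
  let T : S → S := fun p => ⟨_, step p⟩
  have hT : Function.Injective T := fun p q e => Subtype.ext (inj hD hb.l hy' ho p.2.1 q.2.1
    (inj hD hy' tb.l ho'.symm (psi hD tb.l hy' ho' p.2.2.1) (psi hD tb.l hy' ho' q.2.2.1)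
      (congrArg Subtype.val e)))
  obtain ⟨p, hp⟩ := Finite.surjective_of_injective hT ⟨_, key, mkP hD αt.symm key.2.2.2, αu⟩
  have e1 := inj hD hy' tb.l ho'.symm (psi hD tb.l hy' ho' p.2.2.1) (mkP hD hy.co fa)
    (congrArg Subtype.val hp)
  have e2 := inj hD hb.l hy' ho p.2.1 (mkP hD cb.symm hy.fo) (e1.trans hy.eq.symm)
  exact hu.fo.not_comm hD ca.l hu' (e2 ▸ p.2.2.2.symm)

/-- a common neighbour of a special pair collinear with the commutator is equivalent to it -/
theorem main (ha : Co D a d) (hb : Co D b d) (h : Fo a b) (hc : Co D (K a b) d) : Ee D (K a b) d := by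
  have hD := H.rt
  by_contra hn
  obtain ⟨u, hu⟩ := es H hc hn
  have sw : K b a = K a b := K_swap hD ha.l hb.l fun o => o.not_fo h
  have hu' := hu.co.l
  have hJ := jac' H ha.l hb.l hu' h (ha.nod hD hu' hu.co.c) (hb.nod hD hu' hu.co.c)
    (fun o => o.not_fo hu.fo) fun e o =>
    hb.nod hD (co_l hD ha.l hu' e).l (comm_K ha.c.symm hu.co.c.symm).symm o.symm
  rw [hu.eq] at hJ
  by_cases e : K a (K b u) = 1
  · refine main1 H hb ha h.symm (sw ▸ hu) fun e' => ?_
    rw [e, one_mul] at hJ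
    rcases K_cases hD ha.l hu' (ha.nod hD hu' hu.co.c) with e1 | e1
    · exact RI.ne_one hD ha.r (by rw [← hJ, e1, K_one_l (sq hD hb.l)])
    · have l := (co_l hD ha.l hu' e1).l
      rw [K_swap hD l hb.l fun o =>
        hb.nod hD l (comm_K ha.c.symm hu.co.c.symm).symm o.symm, hJ] at e'
      exact RI.ne_one hD ha.r e'
  · exact main1 H ha hb h hu e

end Cfsg.Agent.H8.RS
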