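import Cfsg.Agent.H8.RS1

/-! Root involutions: the root structure theorem. -/

set_option autoImplicit false

namespace Cfsg.Agent.H8.RS

open RI ZD Subgroup

variable {G : Type*} [Group G] {D : Set G} {a b c d e f g k l p q s t u v w x y z : G}

theorem nil_desc [Finite G] {M : Subgroup G} (hM : IsPGroup 2 M) {S : Set G}
    (hS : ∀ c ∈ S, c ∈ M ∧ ∃ u ∈ M, ∃ e ∈ M, (∀ m ∈ M, e * m = m * e) ∧ c * u ≠ u * c ∧
      c * u * c⁻¹ * u⁻¹ * e ∈ S) : c ∉ S := by
  haveI : Fact (Nat.Prime 2) := ⟨Nat.prime_two⟩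
  obtain ⟨n, hn⟩ := hM.isNilpotent.nilpotent
  have k : ∀ n : ℕ, ∀ c : M, c.1 ∈ S → c ∉ Subgroup.upperCentralSeries M (n + 1) := by
    intro n
    induction n with
    | zero =>
      intro c hc h
      obtain ⟨-, u, hu, -, -, -, h1, -⟩ := hS c hc
      rw [zero_add, Subgroup.upperCentralSeries_one, mem_center_iff] at h
      exact h1 (congrArg Subtype.val (h ⟨u, hu⟩)).symm
    | succ n ih =>
      intro c hc h
      obtain ⟨-, u, hu, e, he, h0, -, h1⟩ := hS c hc
      have h2 := Subgroup.mem_upperCentralSeries_succ_iff.1 h ⟨u, hu⟩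
      suffices h3 : (⟨e, he⟩ : M) ∈ Subgroup.upperCentralSeries M (n + 1) from
        ih _ (by simpa [commutatorElement_def] using h1) (Subgroup.mul_mem _ h2 h3)
      refine Subgroup.upperCentralSeries_mono M (Nat.succ_le_succ (Nat.zero_le n)) ?_
      rw [Nat.succ_eq_add_one, zero_add, Subgroup.upperCentralSeries_one, mem_center_iff]
      exact fun m => Subtype.ext (h0 m m.2).symm
  intro hc
  exact k n ⟨c, (hS c hc).1⟩ hc (Subgroup.upperCentralSeries_mono M (Nat.le_succ n) (hn ▸ mem_top _))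

/-- trivial or equivalent to `f` -/
def E1 (D : Set G) (f k : G) : Prop := k = 1 ∨ k ∈ D ∧ Ee D k f

theorem E1.comm (h : E1 D f k) (hg : g ∈ D) (e : g * f = f * g) : g * k = k * g :=
  h.elim (fun e => by rw [e, mul_one, one_mul]) fun h => (h.2 g hg).2 e

theorem Ee.comm (h : Ee D a b) (ha : a ∈ D) : a * b = b * a := (h a ha).1 rfl

theorem tau [Finite G] (hD : IsRootInvolutionSet D) (hu : u ∈ D) (hy : y ∈ D) (ho : Od u y)
    (hd : P D u y d) : K (K d y) u = d ∨ Co D (K (K d y) u) d := by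
  obtain ⟨p, hp, e⟩ := L2 hD hu hy ho hd
  change K p u = d at e
  have h1 := psi hD hu hy ho hd
  have h2 := psi hD hy hu ho.symm h1
  have c0 := co_l hD hp.1 hu hp.2.2.2
  have c1 := co_l hD hd.1 hy hd.2.2.2
  have c2 := co_l hD h1.1 hu h1.2.2.2
  have e0 := conj_K' (sq hD hp.1) u
  have e1 := conj_K' (sq hD hd.1) y
  have e2 := conj_K' (sq hD h1.1) u
  rw [e] at c0 e0
  have c3 : p * K d y = K d y * p := comm_K c0.c.symm hp.2.1.symm
  have c4 : d * K (K d y) u = K (K d y) u * d := comm_K c1.c.symm hd.2.1.symm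
  generalize K (K d y) u = r at *
  generalize K d y = q at *
  have uu := sq hD hu
  have dd := sq hD hd.1
  have m1 := conj_mem hD (conj_mem hD hp.1 hu) hy
  have m2 := conj_mem hD m1 hu
  have k1 : y * (u * p * u) * y = p * (d * q) := by
    have := e0 1
    rw [mul_one, mul_one] at this
    rw [mul_assoc u, this, mul_assoc, mul_assoc, ← cc hp.2.1.symm, ← mul_one (d * y), mul_assoc d, e1,
      mul_one]
  rw [k1] at m1 m2
  have k2 : u * (p * (d * q)) * u = p * (q * r) := by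
    calc _ = u * (p * (u * (d * (u * (q * (u * 1)))))) := by
          simp only [mul_assoc, mul_one, cc hd.2.1.symm, ii uu]
      _ = _ := by rw [e0, e2, ii dd, mul_one]
  have k3 : u * (p * (q * r)) * u = p * (d * q) := by rw [← k2]; simp only [mul_assoc, ii uu, uu, mul_one]
  rw [k2] at m2
  have c5 : p * r = r * p := comm_of_mul c3 (co_of hD hp.1 (c2.c ▸ c2.m) m2).c
  have k4 : p * (q * r) * (p * (d * q)) = r * d := by
    simp only [mul_assoc, ← cc c5, ← cc c3, ii (sq hD hp.1), ← c1.c, cc c2.c, ii (sq hD h1.1)]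
  have k5 : p * (d * q) * (p * (q * r)) = r * d := by
    simp only [mul_assoc, ← cc c3, cc c0.c, ii (sq hD hp.1), ii (sq hD h1.1), c4]
  have n : ¬ Od (p * (q * r)) u := fun o => (o.sq_od hD m2 hu).not_comm hD m2 (conj_mem hD m2 hu)
    (by rw [k3, k4, k5])
  have k6 : K (p * (q * r)) u = r * d := by
    rw [K, mul_assoc, ← mul_assoc u, k3, k4]
  rcases K_cases hD m2 hu n with h | h
  · left
    rw [k6] at h
    rw [eq_inv_of_mul_eq_one_left h, inv_eq hD hd.1]
  · exact .inr (co_of hD h2.1 hd.1 (k6 ▸ (co_l hD m2 hu h).l))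

variable [Finite G] (H : NC D)
include H

theorem ee_mul (h : Ee D a b) (hc : Co D a b) : Ee D (a * b) a := by
  have hD := H.rt
  have := odd_eq_of_subset hD H.cl hc.m hc.l fun x hx => by
    rw [mem_odd_iff] at hx ⊢
    refine ⟨hx.1, by_contra fun hn => hn ?_⟩
    have := (L1 hD hc.m hc.l hx.1 (hc.mul_l hD).c (hc.mul_l hD).m hx.2 hn).2
    rw [hc.c, mul_assoc, sq hD hc.l, mul_one] at this
    exact h.symm.od hD hc.r hc.l hx.1 this
  exact fun g hg => ⟨cm_of_odd_eq hD H.cl H.ni hc.m hc.l this hg,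
    cm_of_odd_eq hD H.cl H.ni hc.l hc.m this.symm hg⟩

omit [Finite G] in
theorem exists_co (hfo : ∃ a ∈ D, ∃ b ∈ D, Fo a b) (hd : d ∈ D) :
    ∃ a b, Co D a d ∧ Co D b d ∧ Fo a b ∧ K a b = d := by
  obtain ⟨a, ha, b, hb, h, e⟩ := exists_fo H.rt H.cl hfo hd
  exact ⟨a, b, e ▸ (co_l H.rt ha hb h).symm, e ▸ (co_r H.rt ha hb h).symm, h, e⟩

theorem tT (hfo : ∃ a ∈ D, ∃ b ∈ D, Fo a b) (hz : z ∈ D) (hd : d ∈ D)
    (h : ∀ e, Co D e d → e * z = z * e) : Ee D z d := by
  have hD := H.rt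
  by_contra hn
  have : ¬ oddPartners D d ⊆ oddPartners D z := fun e => hn fun g hg =>
    have e := odd_eq_of_subset hD H.cl hd hz e
    ⟨cm_of_odd_eq hD H.cl H.ni hz hd e.symm hg, cm_of_odd_eq hD H.cl H.ni hd hz e hg⟩
  obtain ⟨x, hx, hx'⟩ := Set.not_subset.1 this
  rw [mem_odd_iff] at hx hx'
  have h1 : Fo z x := fo_of hD hz hx.1 (fun o => hx' ⟨hx.1, o⟩) fun e => by
    obtain ⟨y, hy, o⟩ := H.ni z hz
    have : closure (productPartners D d ∪ {x}) ≤ centralizer {z} := (closure_le _).2 (by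
      rintro s (hs | rfl)
      · exact mem_centralizer_singleton_iff.2 (h s ⟨hs.1.1, hd, hs.1.2.1, hs.2⟩)
      · exact mem_centralizer_singleton_iff.2 e.symm)
    exact o.not_comm hD hz hy (mem_centralizer_singleton_iff.1
      (this ((gen_eq_top hD H.cl hfo H.ni hd hx.1 hx.2).ge (mem_top y)))).symm
  obtain ⟨a, -, ha, -⟩ := exists_co H hfo hd
  have dz : d * z = z * d := (comm_of_mul (h a ha).symm (h _ (ha.mul_r hD)).symm).symm
  have vz := co_l hD hz hx.1 h1
  have p1 := (P_of hD (co_r hD hz hx.1 h1) hd hx.2.symm (vz.nod hD hd dz)).2.2.2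
  have c1 := co_r hD hd vz.l p1.symm
  obtain ⟨e, he⟩ := es H (co_l hD hd vz.l p1.symm)
    fun e => p1.not_comm hD vz.l hd ((e _ vz.l).1 c1.c.symm)
  exact vz.nod hD he.co.l (h e he.co) (od_of_three hD he.co.l
    (three' hD (co_l hD hd vz.l p1.symm) he vz.l p1.symm rfl)).symm

variable (hE : ∀ a ∈ D, ∀ b ∈ D, Ee D a b → a ≠ b → a * b ∈ D)
include hE

theorem E1.mul (h : E1 D f k) (h' : E1 D f l) : E1 D f (k * l) := by
  rcases h with rfl | h
  · rwa [one_mul]
  rcases h' with rfl | h'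
  · rw [mul_one]; exact .inr h
  by_cases e : k = l
  · exact .inl (by rw [e, sq H.rt h'.1])
  have e1 := h.2.trans h'.2.symm
  have := hE k h.1 l h'.1 e1 e
  exact .inr ⟨this, (ee_mul H e1 (co_of H.rt h.1 h'.1 this)).trans h.2⟩

/-- collinearity is invariant under equivalence -/
theorem col (hp : Co D p f) (hn : ¬ Ee D p f) (hg : g ∈ D) (h : Ee D f g) : Co D p g := by
  have hD := H.rt
  have hf := hp.r
  have hy := hp.l
  obtain ⟨d, hd⟩ := es H hp hn
  have e0 : K d p = f := (K_swap hD hy hd.co.l fun o => o.not_fo hd.fo).trans hd.eq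
  obtain ⟨u, hu⟩ := es H hd.co.symm fun e => hd.fo.not_comm hD hy hd.co.l ((e p hy).1 hp.c)
  have hu' := hu.co.l
  have ho := od_of_three hD hu' (three' hD hd.co.symm hu hy hd.fo.symm e0)
  have A : ∀ v ∈ D, Ee D u v → Fo f v ∧ P D v p (K f v) := fun v hv e =>
    have h1 := (e.fo hD hu' hv hf hu.fo.symm).symm
    ⟨h1, P_of hD (co_r hD hf hv h1) hy (e.od hD hu' hv hy ho)
      fun o => hp.nod hD (co_l hD hf hv h1).l (co_l hD hf hv h1).c o.symm⟩
  have B : ∀ v ∈ D, Ee D u v → ∀ w ∈ D, Ee D u w → v ≠ w →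
      K f v * (K (K f w) p * (K f v * K (K f v) p)) ∈ D := fun v hv e w hw e' hne => by
    have e1 := e.symm.trans e'
    have m := hE v hv w hw e1 hne
    have e2 := e.trans (ee_mul H e1 (co_of hD hv hw m)).symm
    have a1 := A v hv e
    have a2 := A w hw e'
    have a3 := A _ m e2
    have c1 := (e1 _ a2.2.1).2 a2.2.2.1.symm
    have c2 : K f w * K f v = K f v * K f w := comm_K (co_l hD hf hw a2.1).c c1
    have e3 : K f (v * w) = K f w * K f v := K_of_conj (sq hD hf) (by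
      calc _ = v * w * f * (w * v) := by rw [← e1.comm hv]
        _ = v * (w * (f * (w * v))) := by simp only [mul_assoc]
        _ = v * (f * (v * K f w)) := by rw [conj_K' (sq hD hf) w, c1]
        _ = _ := by rw [conj_K' (sq hD hf), c2])
    have := (psi hD m hy (e2.od hD hu' m hy ho) a3.2).1
    have q1 := conj_K' (sq hD a2.2.1) p
    have q2 := conj_K' (sq hD a1.2.1) p
    have zz := sq hD a2.2.1
    rw [e3] at this
    generalize K f w = z1 at *
    generalize K f v = z2 at *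
    convert this using 1
    symm
    calc K (z1 * z2) p = z1 * (z2 * (p * (z1 * (p * (p * (z2 * (p * 1))))))) := by
          simp only [K, mul_assoc, ii (sq hD hy), mul_one]
      _ = _ := by rw [q1, q2, cc c2.symm, ii zz, mul_one]
  let SU := {v // v ∈ D ∧ Ee D u v}
  let SF := {v // v ∈ D ∧ Ee D f v}
  have C : ∀ v : SU, K (K f v.1) p ∈ D ∧ Ee D f (K (K f v.1) p) := by
    rintro ⟨v, hv, e⟩
    dsimp only
    have a1 := A v hv e
    have a2 := psi hD hv hy (e.od hD hu' hv hy ho) a1.2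
    refine ⟨a2.1, ?_⟩
    by_cases e1 : v = u
    · rw [e1, hu.eq, e0]; exact Ee.refl _
    have := B v hv e u hu' (Ee.refl _) e1
    have c1 := co_l hD hf hv a1.1
    rw [hu.eq, e0, cc c1.c, ii (sq hD c1.l)] at this
    exact (main H c1 hp a1.2.2.2.2 (co_of hD hf a2.1 this).symm).symm
  let Φ : SU → SF := fun v => ⟨_, C v⟩
  have hΦ : Function.Injective Φ := fun v w e => Subtype.ext (by
    by_contra hne
    have := B _ v.2.1 v.2.2 _ w.2.1 w.2.2 hne
    have a1 := (A _ v.2.1 v.2.2).2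
    have c1 := co_l hD a1.1 hy a1.2.2.2
    rw [show K (K f w.1) p = K (K f v.1) p from (congrArg Subtype.val e).symm, cc c1.c,
      ii (sq hD a1.1), sq hD c1.l] at this
    exact RI.ne_one hD this rfl)
  obtain ⟨k, hk⟩ := H.cl f hf u hu'
  let Ψ : SF → SU := fun v => ⟨k * v.1 * k⁻¹, hD.conj_mem _ v.2.1 k, hk ▸ v.2.2.conj hD k⟩
  have hΨ : Function.Injective Ψ := fun v w e => Subtype.ext (by simpa [Ψ] using congrArg Subtype.val e)
  obtain ⟨v, hv⟩ := Finite.surjective_of_injective (hΦ.comp hΨ) ⟨g, hg, h⟩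
  have a1 := (A _ (Ψ v).2.1 (Ψ v).2.2).2
  exact (show K (K f (Ψ v).1) p = g from congrArg Subtype.val hv) ▸ (co_r hD a1.1 hy a1.2.2.2).symm

theorem col' (hp : Co D p f) (hg : g ∈ D) (h : Ee D f g) : p = g ∨ Co D p g := by
  by_cases e : Ee D p f
  · exact (em _).imp_right fun e1 => co_of H.rt hp.l hg (hE p hp.l g hg (e.trans h) e1)
  · exact .inr (col H hE hp e hg h)

omit hE in
theorem pM (d : G) : IsPGroup 2 (closure {e | Co D e d}) :=
  isPGroup_closure H.rt (fun _ h => h.l) (fun a ha b hb => by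
    simpa only [inv_eq H.rt ha.l, ha.c, mul_assoc, sq H.rt ha.l, mul_one, Set.mem_ofPred_eq]
      using Co.conj H.rt hb a)
    fun a ha b hb => ha.nod H.rt hb.l hb.c

variable (hfo : ∃ a ∈ D, ∃ b ∈ D, Fo a b)
include hfo

/-- common neighbours of a special pair are equivalent to the commutator -/
theorem thmA (ha : Co D a d) (hb : Co D b d) (h : Fo a b) : Ee D (K a b) d := by
  have hD := H.rt
  have hd := ha.r
  by_contra hn
  let M := closure {e | Co D e d}
  have mM : ∀ {e}, Co D e d → e ∈ M := fun h => subset_closure h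
  have kM : ∀ {a b}, Co D a d → Co D b d → K a b ∈ M := fun ha hb =>
    mul_mem (mul_mem (mM ha) (mM hb)) (mul_mem (mM ha) (mM hb))
  refine nil_desc (pM H d) (S := {c | ¬ Ee D c d ∧ ∃ a b, Co D a d ∧ Co D b d ∧ Fo a b ∧ K a b = c})
    ?_ ⟨hn, a, b, ha, hb, h, rfl⟩
  rintro _ ⟨hn, a, b, ha, hb, h, rfl⟩
  have ca := co_l hD ha.l hb.l h
  have cb := co_r hD ha.l hb.l h
  have n1' : ¬ Co D (K a b) d := fun e => hn (main H ha hb h e)
  obtain ⟨u, hu, h1⟩ : ∃ u, Co D u d ∧ u * K a b ≠ K a b * u := by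
    by_contra h0
    push Not at h0
    exact hn (tT H hfo ca.l hd h0)
  have cd : K a b * d = d * K a b := (comm_K ha.c.symm hb.c.symm).symm
  have cu : ¬ Od (K a b) u := fun o => hu.nod hD ca.l cd o.symm
  have fu := fo_of hD ca.l hu.l cu (Ne.symm h1)
  obtain ⟨y, hy⟩ := es H ca fun e => h.not_comm hD ha.l hb.l ((e b hb.l).1 cb.c.symm).symm
  obtain ⟨-, fd, -, c1, c2⟩ := twin H ha hb h hy
  have c3 := co_l hD hd hy.co.l fd
  have c'u : ¬ Od (K d y) u := c3.nod hD hu.l hu.c
  have hε : E1 D d (K (K d y) u) := by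
    rcases K_cases hD c3.l hu.l c'u with e | e
    · exact .inl e
    have o : Od u y := by_contra fun o =>
      e.not_comm hD c3.l hu.l (n1 H hu hy.co.l (fun o => o.not_fo fd) o).symm
    have m := (co_l hD c3.l hu.l e).l
    exact .inr ⟨m, (tau hD hu.l hy.co.l o (mkP hD hu fd)).elim (fun e => by rw [e]; exact Ee.refl _)
      (main H c3 hu e)⟩
  have c4 : K d y * K (K a b) u = K (K a b) u * K d y := n1 H c1.symm hu.l cu c'u
  have e1 : K (K a b * K d y) u = K (K a b) u * K (K d y) u := K_of_conj (sq hD c1.m) (by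
    calc _ = u * K a b * u * (u * K d y * u) := by simp only [mul_assoc, ii (sq hD hu.l)]
      _ = _ := by
        rw [conj_K (sq hD ca.l), conj_K (sq hD c3.l)]; simp only [mul_assoc, cc c4])
  have cv := co_l hD ca.l hu.l fu
  have n2 : ¬ E1 D d (K (K a b) u * K (K d y) u) := fun e => by
    have := e.mul H hE hε
    rw [mul_assoc, K_sq hD c3.l hu.l c'u, mul_one] at this
    exact n1' (col H hE cv.symm (fun e => hn (e.trans (this.resolve_left (RI.ne_one hD cv.l)).2)) hd
      (this.resolve_left (RI.ne_one hD cv.l)).2)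
  have f2 := fo_of_K hD c2.l hu.l (c2.nod hD hu.l hu.c) fun e => n2 (.inl (e1 ▸ e))
  refine ⟨kM ha hb, u, mM hu, _, kM c3 hu, fun m hm => ?_, Ne.symm h1, ?_⟩
  · have : M ≤ centralizer {K (K d y) u} := (closure_le _).2 fun e he =>
      mem_centralizer_singleton_iff.2 (hε.comm he.l he.c)
    exact (mem_centralizer_singleton_iff.1 (this hm)).symm
  · rw [inv_eq hD ca.l, inv_eq hD hu.l, mul_assoc (_ * u)]
    exact ⟨fun e => n2 (.inr ⟨e1 ▸ (co_l hD c2.l hu.l f2).l, e⟩), _, _, c2, hu, f2, e1⟩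

theorem thmA' (ha : Co D a d) (hb : Co D b d) : E1 D d (K a b) :=
  (K_cases H.rt ha.l hb.l (ha.nod H.rt hb.l hb.c)).imp_right
    fun h => ⟨(co_l H.rt ha.l hb.l h).l, thmA H hE hfo ha hb h⟩

theorem gam (h1 : Co D e d) (h2 : Co D e f) (h3 : Co D (e * f) d) : f = d ∨ Co D f d := by
  have hD := H.rt
  have hd := h1.r
  have hf := h2.r
  by_contra hn
  push Not at hn
  have df : d * f = f * d := comm_of_mul h1.c.symm h3.c.symm
  have h4 : Co D (e * d) f := co_of hD h1.m hf (by rw [mul_assoc, df, ← mul_assoc]; exact h3.m)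
  have n1 : ¬ Ee D d f := fun e => hn.2 (co_of hD hf hd (hE f hf d hd e.symm hn.1))
  refine n1 (tT H hfo hd hf fun s hs => ?_)
  have k1 := thmA' H hE hfo h2 hs
  have k2 := thmA' H hE hfo h4 hs
  have e1 : K d s = K e s * K (e * d) s := K_of_conj (sq hD hd) (by
    calc _ = s * e * s * (s * (e * d) * s) := by
          simp only [mul_assoc, ii (sq hD hs.l), ii (sq hD h1.l)]
      _ = _ := by
        rw [conj_K (sq hD h1.l), conj_K (sq hD h1.m)]
        simp only [mul_assoc, ← cc (k1.comm h1.l h2.c), ii (sq hD h1.l), cc (k1.comm hd df)])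
  rcases k1.mul H hE k2 with k | k
  · exact (comm_of_sq (sq hD hd) (sq hD hs.l) (e1.trans k)).symm
  · rw [← e1] at k
    have := co_l hD hd hs.l (fo_of_K hD hd hs.l (fun o => hs.nod hD hd df o.symm) (RI.ne_one hD k.1))
    exact absurd (col H hE this.symm (fun e => n1 (e.trans k.2)) hf k.2).symm hn.2

omit hfo in
theorem K_surj (hA : ∀ {a b d}, Co D a d → Co D b d → Fo a b → Ee D (K a b) d) (hg : g ∈ D)
    (he : e ∈ D) (h : Fo g e) (hk : k ∈ D) (h1 : Ee D (K g e) k) :
    ∃ g' ∈ D, Ee D g g' ∧ K g' e = k := by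
  have hD := H.rt
  have c1 := co_l hD hg he h
  have c2 := co_r hD hg he h
  let SU := {v // v ∈ D ∧ Ee D g v}
  let SF := {v // v ∈ D ∧ Ee D (K g e) v}
  have C : ∀ v : SU, K v.1 e ∈ D ∧ Ee D (K g e) (K v.1 e) := by
    rintro ⟨v, hv, e1⟩
    have h2 := e1.fo hD hg hv he h
    exact ⟨(co_l hD hv he h2).l, (hA (col H hE c1
      (fun e2 => h.not_comm hD hg he ((e2 e he).1 c2.c.symm).symm) hv e1).symm c2.symm h2).symm⟩
  let Φ : SU → SF := fun v => ⟨_, C v⟩
  have hΦ : Function.Injective Φ := fun v w e0 => Subtype.ext (by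
    by_contra hne
    have e1 := v.2.2.symm.trans w.2.2
    have m := hE _ v.2.1 _ w.2.1 e1 hne
    have e2 := v.2.2.trans (ee_mul H e1 (co_of hD v.2.1 w.2.1 m)).symm
    refine (e2.fo hD hg m he h).not_comm hD m he ?_
    have e3 : K v.1 e = K w.1 e := congrArg Subtype.val e0
    have := congrArg (fun z => v.1 * z * e * w.1) e3
    simp only [K, mul_assoc, ii (sq hD v.2.1), ii (sq hD he), sq hD w.2.1, mul_one] at this
    rw [mul_assoc, ← this])
  obtain ⟨l, hl⟩ := H.cl _ c1.l g hg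
  let Ψ : SF → SU := fun v => ⟨l * v.1 * l⁻¹, hD.conj_mem _ v.2.1 l, by
    have := v.2.2.conj hD l
    rwa [← hl] at this⟩
  have hΨ : Function.Injective Ψ := fun v w e => Subtype.ext (by simpa [Ψ] using congrArg Subtype.val e)
  obtain ⟨v, hv⟩ := Finite.surjective_of_injective (hΦ.comp hΨ) ⟨k, hk, h1⟩
  exact ⟨_, (Ψ v).2.1, (Ψ v).2.2, congrArg Subtype.val hv⟩

/-- a symplectic partner has an opposite member in the centralizer -/
theorem thmB (hd : d ∈ D) (hw : w ∈ D) (h1 : w * d = d * w) (h2 : w ≠ d) (h3 : w * d ∉ D) :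
    ∃ y ∈ D, y * d = d * y ∧ Od w y := by
  have hD := H.rt
  have n0 : ¬ Co D w d := fun e => h3 e.m
  obtain ⟨e, he, h4⟩ : ∃ e, Co D e d ∧ e * w ≠ w * e := by
    by_contra h0
    push Not at h0
    exact h3 (hE w hw d hd (tT H hfo hw hd h0) h2)
  have ew := he.nod hD hw h1
  have fe := fo_of hD he.l hw ew h4
  have c1 := co_l hD he.l hw fe
  have c2 := co_r hD he.l hw fe
  have ee := sq hD he.l
  have ww := sq hD hw
  have dd := sq hD hd
  have e1 := conj_K' ee w
  have c3 : Co D (e * K e w) d := by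
    simpa only [inv_eq hD hw, h1, mul_assoc, ww, mul_one, ← conj_K ee] using he.conj hD w
  have c4 := (gam H hE hfo he c1.symm c3).resolve_left fun e => n0 (e ▸ c2.symm)
  have A : ∀ y, Co D y e → y * K e w ≠ K e w * y → Od w y := fun y hy h =>
    Od.symm (by_contra fun o => h (n1 H hy hw ew o))
  have n1' : ¬ Ee D (K e w) e := fun e' => h4 ((e' w hw).1 c2.c.symm).symm
  obtain ⟨y, hy⟩ := es H c1 n1'
  have yf := conj_K' (sq hD c1.l) y
  rw [hy.eq] at yf
  rcases thmA' H hE hfo he.symm hy.co with k1 | k1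
  · exact ⟨y, hy.co.l, (comm_of_sq dd (sq hD hy.co.l) k1).symm,
      A y hy.co (hy.fo.not_comm hD c1.l hy.co.l).symm⟩
  obtain ⟨u, hu, u1, u2, u3⟩ : ∃ u ∈ D, u * e = e * u ∧ u * d = d * u ∧
      ∀ x, u * (K e w * (u * x)) = K e w * (d * x) := by
    obtain ⟨u, hu⟩ := es H c4 fun e' => (col' H hE c2.symm hd e').elim h2 n0
    have uf := conj_K' (sq hD c1.l) u
    rw [hu.eq] at uf
    have hu' := hu.co.l
    rcases thmA' H hE hfo he hu.co with k2 | k2
    · exact ⟨u, hu', (comm_of_sq ee (sq hD hu') k2).symm, hu.co.c, uf⟩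
    have ue := conj_K' ee u
    have uw : ¬ Od u w := hu.co.nod hD hw h1
    have wk := (k2.2 w hw).2 h1
    have uk := (k2.2 u hu').2 hu.co.c
    have fk := (k2.2 _ c1.l).2 c4.c
    have kk := sq hD k2.1
    have g1 : ∀ x, K u w * (e * (K u w * x)) = e * (d * x) := fun x => by
      conv_lhs => enter [2, 2]; rw [← K_swap hD hu' hw uw]
      calc _ = u * (w * (u * (w * (e * (w * (u * (w * (u * x)))))))) := by simp only [K, mul_assoc]
        _ = u * (w * (u * (e * (u * (u * (K e w * (u * (w * (u * x))))))))) := by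
          rw [e1, ii (sq hD hu')]
        _ = u * (w * (e * (w * (K e u * (K e w * (d * (u * x))))))) := by
          rw [ue, uf, cc h1.symm, cc c2.c, cc wk.symm]
        _ = u * (e * (u * (K e u * (d * x)))) := by
          rw [e1, cc fk, ii (sq hD c1.l), cc hu.co.c.symm, cc uk.symm]
        _ = _ := by rw [ue, ii kk]
    have g2 : K u w * K e w = K e w * K u w := by
      refine comm_of_sq (K_sq hD hu' hw uw) (sq hD c1.l) ?_
      conv_lhs => enter [2, 1]; rw [← K_swap hD hu' hw uw]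
      calc _ = u * (w * (u * (w * (K e w * (w * (u * (w * (u * K e w)))))))) := by
            simp only [K, mul_assoc]
        _ = u * (K e w * (u * (d * K e w))) := by
          rw [← cc c2.c, ii ww, uf, cc h1.symm, cc c2.c, ii ww, cc hu.co.c.symm]
        _ = _ := by rw [uf, ii dd, sq hD c1.l]
    have fg : Fo u w := fo_of_K hD hu' hw uw fun e' => RI.ne_one hD hd (by simpa [e'] using (g1 1).symm)
    have cg := co_l hD hu' hw fg
    have gd : K u w * d = d * K u w := (comm_K hu.co.c.symm h1.symm).symm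
    have ge : ¬ Od e (K u w) := he.nod hD cg.l gd
    have g3 : K e (K u w) = d := K_of_conj ee (by simpa only [mul_assoc, mul_one] using g1 1)
    have g4 := fo_of_K hD he.l cg.l ge (g3 ▸ RI.ne_one hD hd)
    obtain ⟨g', hg', q1, q2⟩ := K_surj H hE (thmA H hE hfo) cg.l he.l g4.symm k2.1
      (by rw [K_swap hD he.l cg.l ge, g3]; exact k2.2.symm)
    have cu := col H hE cg.symm (fun e' => hu.fo.not_comm hD c1.l hu' ((e' _ c1.l).2 g2.symm)) hg' q1
    have q3 := conj_K' ee g'
    rw [K_swap hD hg' he.l fun o => ge (q1.symm.od hD hg' cg.l he.l o).symm, q2] at q3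
    have q4 := (q1 _ c1.l).1 g2.symm
    have q5 := (q1 _ hd).1 gd.symm
    refine ⟨u * g', cu.m, (comm_of_sq ee (sq hD cu.m) ?_).symm, (comm_mul hu.co.c.symm q5).symm,
      fun x => ?_⟩
    · conv_lhs => enter [2, 2]; rw [cu.c]
      simp only [mul_assoc]
      rw [q3, ← uk, ue, kk, mul_one, ee]
    · conv_lhs => enter [2, 2, 1]; rw [cu.c]
      simp only [mul_assoc]
      rw [← cc q4, ii (sq hD hg'), uf]
  have yd := conj_K' dd y
  have yu : ¬ Od y u := hy.co.nod hD hu u1
  have uk := (k1.2 u hu).2 u1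
  have yk := (k1.2 y hy.co.l).2 hy.co.c
  have ek := (k1.2 e he.l).2 rfl
  have uu := sq hD hu
  have yy := sq hD hy.co.l
  have kk := sq hD k1.1
  have g1 : ∀ x, K y u * (K e w * (K y u * x)) = K e w * (K d y * x) := fun x => by
    conv_lhs => enter [2, 2]; rw [← K_swap hD hy.co.l hu yu]
    calc _ = y * (u * (y * (u * (K e w * (u * (y * (u * (y * x)))))))) := by simp only [K, mul_assoc]
      _ = y * (u * (y * (K e w * (y * (y * (d * (y * (u * (y * x))))))))) := by rw [u3, ii yy]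
      _ = y * (u * (K e w * (u * (e * (d * (K d y * (y * x))))))) := by
        rw [yf, yd, cc uk.symm, cc u2.symm, cc u1.symm]
      _ = y * (K e w * (y * (e * (K d y * x)))) := by
        rw [u3, cc he.c, ii dd, cc yk.symm, cc hy.co.c.symm]
      _ = _ := by rw [yf, ii ee]
  have g2 : K y u * d = d * K y u := by
    refine comm_of_sq (K_sq hD hy.co.l hu yu) dd ?_
    conv_lhs => enter [2, 1]; rw [← K_swap hD hy.co.l hu yu]
    calc _ = y * (u * (y * (u * (d * (u * (y * (u * (y * d)))))))) := by simp only [K, mul_assoc]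
      _ = y * (d * (y * (K d y * d))) := by
        rw [← cc u2, ii uu, yd, cc uk.symm, cc u2.symm, ii uu, cc yk.symm]
      _ = _ := by rw [yd, ii kk, dd]
  have g3 : K (K e w) (K y u) = K d y :=
    K_of_conj (sq hD c1.l) (by simpa only [mul_assoc, mul_one] using g1 1)
  have fg : Fo y u := fo_of_K hD hy.co.l hu yu fun e' =>
    RI.ne_one hD k1.1 (by rw [← g3, e', K_one_r (sq hD c1.l)])
  have cg := co_l hD hy.co.l hu fg
  have g4 := fo_of_K hD c1.l cg.l (c4.nod hD cg.l g2) (g3 ▸ RI.ne_one hD k1.1)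
  have g5 := (g4.not_comm hD c1.l cg.l).symm
  exact ⟨_, cg.l, g2, A _ (col H hE (g3 ▸ (co_r hD c1.l cg.l g4).symm)
    (fun e' => g5 (((e'.trans k1.2) _ c1.l).2 c1.c).symm) he.l k1.2) g5⟩

end Cfsg.Agent.H8.RS
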