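import Cfsg.Agent.H8.RS2

/-! Root involutions: the non-degenerate case, first consequences of Theorem A. -/

set_option autoImplicit false
set_option linter.style.haveILetI false

namespace Cfsg.Agent.H8.RS

open RI ZD Subgroup

variable {G : Type*} [Group G] {D : Set G} {a b c d e f g k l p q s t u v w x y z : G}

/-- the standing hypotheses of the non-degenerate case -/
structure ND (D : Set G) : Prop extends NC D where
  fo : ∃ a ∈ D, ∃ b ∈ D, Fo a b
  hO : pCore 2 G = ⊥
  hZ : center G = ⊥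
  A : ∀ {a b d : G}, Co D a d → Co D b d → Fo a b → Ee D (K a b) d

theorem braid3 (aa : a * a = 1) (xx : x * x = 1) (h3 : orderOf (a * x) = 3) :
    a * (x * a) = x * (a * x) := by
  have := pow_orderOf_eq_one (a * x)
  rw [h3] at this
  have := congrArg (fun z => z * (x * (a * x))) this
  simpa only [pow_succ, pow_zero, one_mul, mul_assoc, ii aa, ii xx, xx, mul_one] using this

theorem DI (hD : IsRootInvolutionSet D) (ha : a ∈ D) (hb : b ∈ D) (hx : x ∈ D)
    (h3 : orderOf (a * x) = 3) (e : Ee D a b) :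
    (orderOf (b * x) = 3 ∧ Ee D x (a * b * x * (a * b))) ∨ Od x (a * b * x * (a * b)) := by
  have aa := sq hD ha
  have bb := sq hD hb
  have xx := sq hD hx
  have ab := e.comm ha
  have o := e.od hD ha hb hx (od_of_three hD ha h3)
  have m := conj_mem hD hx hb
  have e1 := e.conj hD (b * x * b)
  rw [inv_eq hD m] at e1
  have k1 : b * x * b * a * (b * x * b) = a * b * x * (a * b) := by
    have := braid3 aa xx h3
    calc _ = b * (x * (a * x)) * b := by simp only [mul_assoc, ← cc ab, ii bb]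
      _ = _ := by rw [← this]; simp only [mul_assoc, cc ab]
  have k2 : x * (b * x * b * b * (b * x * b)) = (x * b) ^ 3 := by
    simp only [pow_succ, pow_zero, one_mul, mul_assoc, ii bb]
  rw [k1] at e1
  have m2 := conj_mem hD hb m
  by_cases h : x = b * x * b * b * (b * x * b)
  · refine .inl ⟨?_, by rw [← h] at e1; exact e1.symm⟩
    haveI : Fact (Nat.Prime 3) := ⟨Nat.prime_three⟩
    rw [orderOf_mul_comm']
    refine orderOf_eq_prime (by rw [← k2, ← h, xx]) fun e => o.1 ?_
    rw [eq_inv_of_mul_eq_one_right e, inv_eq hD hx]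
  · refine .inr (e1.symm.od hD m2 (k1 ▸ conj_mem hD ha m) hx (Od.symm ⟨h, ?_⟩)).symm
    rw [k2]
    exact o.symm.2.of_dvd_nat (orderOf_pow_dvd 3)

variable [Finite G] (H : ND D)
include H

theorem NF (ha : a ∈ D) (hy : y ∈ D) (o : Od a y) (h : ∀ e, Co D e a → e * t = t * e)
    (h' : y * t = t * y) : t = 1 := by
  have : closure (productPartners D a ∪ {y}) ≤ centralizer {t} := (closure_le _).2 (by
    rintro s (hs | rfl)
    · exact mem_centralizer_singleton_iff.2 (h s ⟨hs.1.1, ha, hs.1.2.1, hs.2⟩)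
    · exact mem_centralizer_singleton_iff.2 h')
  rw [gen_eq_top H.rt H.cl H.fo H.ni ha hy o] at this
  exact mem_bot.1 (H.hZ ▸ mem_center_iff.2 fun g => mem_centralizer_singleton_iff.1 (this (mem_top g)))

theorem SC3 {U A X : G} (hU : U ∈ D) (hA : A ∈ D) (h : Fo U A) (hX : Co D X U) (f : Fo X (K U A)) :
    ∃ y, Co D y X ∧ Fo U y ∧ Ee D (K U y) X ∧ Fo (K U A) (K U y) ∧ K (K U A) (K U y) = U ∧
      orderOf (A * K U y) = 3 := by
  have hD := H.rt
  have c1 := co_l hD hU hA h
  have c2 := co_r hD hU hA h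
  have e1 := H.A hX c1 f
  have c3 := co_l hD hX.l c1.l f
  obtain ⟨y, hy⟩ := es H.toNC c3 fun e =>
    f.not_comm hD hX.l c1.l ((e _ c1.l).1 (co_r hD hX.l c1.l f).c.symm).symm
  have hy' := hy.co.l
  have t1 := three' hD c3 hy c1.l f rfl
  rw [orderOf_mul_comm'] at t1
  have f1 := e1.fo hD c3.l hU hy' hy.fo
  have p1 : P D (K U A) y U := mkP hD c1 f1
  have p2 := psi hD c1.l hy' (od_of_three hD c1.l t1) p1
  have s1 := s3 hD c1.l hy' t1 p1
  rw [← K_swap hD p2.1 c1.l fun o => o.not_fo p2.2.2.2] at s1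
  exact ⟨y, hy.co, f1, H.A hX.symm hy.co f1, p2.2.2.2.symm, s1,
    three' hD c1.symm ⟨c2.symm, h, rfl⟩ p2.1 p2.2.2.2.symm s1⟩

end Cfsg.Agent.H8.RS
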