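import Cfsg.Agent.H8.RS3

/-! Root involutions: Theorem A without the assumption on the equivalence classes. -/

set_option autoImplicit false

namespace Cfsg.Agent.H8.RS

open RI ZD Subgroup

variable {G : Type*} [Group G] {D : Set G} {a b c d e f g k l p q s t u v w x y z : G}

variable [Finite G] (H : NC D)
include H

theorem eps (hy : y ∈ D) (fd : Fo d y) (hu : Co D u d) : E1 D d (K (K d y) u) := by
  have hD := H.rt
  have c3 := co_l hD hu.r hy fd
  rcases K_cases hD c3.l hu.l (c3.nod hD hu.l hu.c) with e | e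
  · exact .inl e
  have o : Od u y := by_contra fun o =>
    e.not_comm hD c3.l hu.l (n1 H hu hy (fun o => o.not_fo fd) o).symm
  have m := (co_l hD c3.l hu.l e).l
  exact .inr ⟨m, (tau hD hu.l hy o (mkP hD hu fd)).elim (fun e => by rw [e]; exact Ee.refl _)
    (main H c3 hu e)⟩

theorem half (ha : Co D a d) (hb : Co D b d) (h : Fo a b) (hu : Co D u d) (hy : Y D a (K a b) y) :
    y * K a (K b u) = K a (K b u) * y := by
  have hD := H.rt
  obtain ⟨-, fd, s1, -, -⟩ := twin H ha hb h hy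
  have hd := ha.r
  have bu : ¬ Od b u := hb.nod hD hu.l hu.c
  rcases K_cases hD hb.l hu.l bu with e | e
  · rw [e, K_one_r (sq hD ha.l), mul_one, one_mul]
  have c3 := co_l hD hd hy.co.l fd
  have tb := co_l hD hb.l hu.l e
  have td : d * K b u = K b u * d := comm_K hb.c.symm hu.c.symm
  have hε := eps H hy.co.l fd hu
  have f1 : Fo (K d y) b := fo_of_K hD c3.l hb.l (c3.nod hD hb.l hb.c) (s1.symm ▸ RI.ne_one hD hd)
  have hJ := jac' H c3.l hb.l hu.l f1 (c3.nod hD hu.l hu.c) bu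
    (by rw [s1]; exact nod_of_comm hD hd hu.l hu.c.symm) fun e o =>
      hb.nod hD (co_l hD c3.l hu.l e).l (comm_K c3.c.symm hu.c.symm).symm o.symm
  rw [s1, K_eq_one (sq hD hd) (sq hD hu.l) hu.c.symm, mul_one,
    K_eq_one (K_sq hD c3.l hu.l (c3.nod hD hu.l hu.c)) (sq hD hb.l) (hε.comm hb.l hb.c).symm] at hJ
  have c4 := comm_of_sq (sq hD c3.l) (sq hD tb.l) hJ.symm
  exact n1 H hy.co tb.l (ha.nod hD tb.l td.symm)
    ((co_r hD hd hy.co.l fd).symm.nod hD tb.l c4.symm)

theorem main2 (ha : Co D a d) (hb : Co D b d) (h : Fo a b) (hu : Co D u d) (fu : Fo (K a b) u)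
    (hv : Ee D (K (K a b) u) d) : False := by
  have hD := H.rt
  have hd := ha.r
  have ca := co_l hD ha.l hb.l h
  have cb := co_r hD ha.l hb.l h
  have sw : K b a = K a b := K_swap hD ha.l hb.l fun o => o.not_fo h
  have au : ¬ Od a u := ha.nod hD hu.l hu.c
  have bu : ¬ Od b u := hb.nod hD hu.l hu.c
  obtain ⟨y, hy⟩ := es H ca fun e => h.not_comm hD ha.l hb.l ((e b hb.l).1 cb.c.symm).symm
  obtain ⟨z, hz⟩ := es H cb fun e => h.not_comm hD ha.l hb.l ((e a ha.l).1 ca.c.symm)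
  have yα := half H ha hb h hu hy
  have zβ := half H hb ha h.symm hu (sw ▸ hz)
  obtain ⟨-, fy, -, -, -⟩ := twin H ha hb h hy
  obtain ⟨t1, fz, s1, -, -⟩ := twin H hb ha h.symm (sw ▸ hz)
  have n4 : Fo a u → ¬ Od (K a u) b := fun e o =>
    hb.nod hD (co_l hD ha.l hu.l e).l (comm_K ha.c.symm hu.c.symm).symm o.symm
  have hJ := jac' H ha.l hb.l hu.l h au bu (fun o => o.not_fo fu) n4
  have hv' := (co_l hD ca.l hu.l fu).l
  have hy' := hy.co.l
  have hz' := hz.co.l
  have vy := hv.symm.fo hD hd hv' hy' fy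
  have vz := hv.symm.fo hD hd hv' hz' fz
  have nβ : K (K a u) b ≠ 1 := fun e => vy.not_comm hD hv' hy' (comm_of_mul yα (by
    rw [← hJ, e, mul_one, one_mul])).symm
  have fa : Fo a u := fo_of_K hD ha.l hu.l au fun e => nβ (by rw [e, K_one_l (sq hD hb.l)])
  have sa := (co_l hD ha.l hu.l fa).l
  have fβ := fo_of_K hD sa hb.l (n4 fa) nβ
  rw [K_swap hD sa hb.l (n4 fa)] at zβ
  have hβ := (co_l hD sa hb.l fβ).l
  have zα : K a (K b u) * z ≠ z * K a (K b u) := fun e =>
    vz.not_comm hD hv' hz' (comm_of_mul e.symm (hJ ▸ zβ)).symm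
  have fb : Fo b u := fo_of_K hD hb.l hu.l bu fun e =>
    zα (by rw [e, K_one_r (sq hD ha.l), mul_one, one_mul])
  have tb := (co_l hD hb.l hu.l fb).l
  have fα := fo_of_K hD ha.l tb (ha.nod hD tb (comm_K hb.c.symm hu.c.symm).symm) fun e =>
    zα (by rw [e, mul_one, one_mul])
  have αa := co_l hD ha.l tb fα
  have av := (hv a ha.l).2 ha.c
  have cd := co_l hD hd hz' fz
  have fd : Fo (K d z) a := fo_of_K hD cd.l ha.l (cd.nod hD ha.l ha.c) (s1.symm ▸ RI.ne_one hD hd)
  have od : Od (K d z) y := Od.symm (by_contra fun o => fy.not_comm hD hd hy' (by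
    have := n1 H hy.co cd.l (fun o => o.symm.not_fo fd) o
    rw [K_swap hD cd.l ha.l (fun o => o.not_fo fd), s1] at this
    exact this.symm))
  have e0 := (hv.conj hD z).conj hD a
  rw [inv_eq hD hz', inv_eq hD ha.l, conj_K (sq hD hd)] at e0
  have m0 := conj_mem hD (conj_mem hD hv' hz') ha.l
  have e1 := conj_K' (sq hD cd.l) a
  rw [s1] at e1
  generalize K (K a b) u = v at *
  generalize K (K a u) b = β at *
  generalize K a (K b u) = α at *
  have αα := sq hD αa.l
  have e2 : α * β = v := by rw [hJ, ii αα]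
  have αβ : Co D α β := co_of hD αa.l hβ (e2 ▸ hv')
  have αz := fo_of hD αa.l hz' (αβ.nod hD hz' zβ) zα
  have c1 := co_l hD αa.l hz' αz
  have s2 := s3 hD ha.l hz' t1 (mkP hD αa.symm αz)
  have e3 := conj_K' αα z
  have e4 := conj_K' (sq hD c1.l) a
  rw [s2] at e4
  generalize K α z = α' at *
  generalize K d z = d' at *
  have k1 : a * (z * v * z) * a = α' * β := by
    have aβ : a * β = β * a := comm_of_mul αa.c.symm (e2 ▸ av)
    calc _ = a * (z * (α * (z * β))) * a := by rw [← e2, zβ]; simp only [mul_assoc]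
      _ = α * (a * (α' * (a * β))) := by rw [e3, aβ, cc αa.c]; simp only [mul_assoc]
      _ = _ := by rw [e4, cc c1.c, ii αα]
  have k2 : a * (d * d') * a = d' := by
    rw [mul_assoc, mul_assoc, cc ha.c, ← mul_one (d' * a), mul_assoc d', e1, mul_one, cd.c, ii (sq hD hd)]
  rw [k1, k2] at e0
  rw [k1] at m0
  have c2 := co_of hD c1.l hβ m0
  have o1 := e0.symm.od hD cd.l m0 hy' od
  have := (L1 hD m0 hβ hy' (c2.mul_r hD).c (c2.mul_r hD).m o1 (αβ.symm.nod hD hy' yα)).2
  rw [mul_assoc, sq hD hβ, mul_one] at this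
  exact c1.nod hD hy' yα this

/-- common neighbours of a special pair are equivalent to the commutator -/
theorem thmA0 (hfo : ∃ a ∈ D, ∃ b ∈ D, Fo a b) (ha : Co D a d) (hb : Co D b d) (h : Fo a b) :
    Ee D (K a b) d := by
  have hD := H.rt
  have hd := ha.r
  by_contra hn
  let M := closure {e | Co D e d}
  have mM : ∀ {e}, Co D e d → e ∈ M := fun h => subset_closure h
  have kM : ∀ {a b}, Co D a d → Co D b d → K a b ∈ M := fun ha hb =>
    mul_mem (mul_mem (mM ha) (mM hb)) (mul_mem (mM ha) (mM hb))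
  refine nil_desc (pM H d) (S := {c | ¬ Ee D c d ∧ ∃ a b, Co D a d ∧ Co D b d ∧ Fo a b ∧ K a b = c})
    ?_ ⟨hn, a, b, ha, hb, h, rfl⟩
  rintro _ ⟨hn, a, b, ha, hb, h, rfl⟩
  have ca := co_l hD ha.l hb.l h
  have cb := co_r hD ha.l hb.l h
  obtain ⟨u, hu, h1⟩ : ∃ u, Co D u d ∧ u * K a b ≠ K a b * u := by
    by_contra h0
    push Not at h0
    exact hn (tT H hfo ca.l hd h0)
  have cd : K a b * d = d * K a b := (comm_K ha.c.symm hb.c.symm).symm
  have cu : ¬ Od (K a b) u := fun o => hu.nod hD ca.l cd o.symm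
  have fu := fo_of hD ca.l hu.l cu (Ne.symm h1)
  obtain ⟨y, hy⟩ := es H ca fun e => h.not_comm hD ha.l hb.l ((e b hb.l).1 cb.c.symm).symm
  obtain ⟨-, fd, -, c1, c2⟩ := twin H ha hb h hy
  have c3 := co_l hD hd hy.co.l fd
  have c'u : ¬ Od (K d y) u := c3.nod hD hu.l hu.c
  have hε := eps H hy.co.l fd hu
  have c4 : K d y * K (K a b) u = K (K a b) u * K d y := n1 H c1.symm hu.l cu c'u
  have e1 : K (K a b * K d y) u = K (K a b) u * K (K d y) u := K_of_conj (sq hD c1.m) (by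
    calc _ = u * K a b * u * (u * K d y * u) := by simp only [mul_assoc, ii (sq hD hu.l)]
      _ = _ := by
        rw [conj_K (sq hD ca.l), conj_K (sq hD c3.l)]; simp only [mul_assoc, cc c4])
  have cv := co_l hD ca.l hu.l fu
  have n2 : ¬ E1 D d (K (K a b) u * K (K d y) u) := fun e =>
    main2 H ha hb h hu fu (tT H hfo cv.l hd fun s hs =>
      comm_of_mul' (hε.comm hs.l hs.c) (e.comm hs.l hs.c))
  have f2 := fo_of_K hD c2.l hu.l (c2.nod hD hu.l hu.c) fun e => n2 (.inl (e1 ▸ e))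
  refine ⟨kM ha hb, u, mM hu, _, kM c3 hu, fun m hm => ?_, Ne.symm h1, ?_⟩
  · have : M ≤ centralizer {K (K d y) u} := (closure_le _).2 fun e he =>
      mem_centralizer_singleton_iff.2 (hε.comm he.l he.c)
    exact (mem_centralizer_singleton_iff.1 (this hm)).symm
  · rw [inv_eq hD ca.l, inv_eq hD hu.l, mul_assoc (_ * u)]
    exact ⟨fun e => n2 (.inr ⟨e1 ▸ (co_l hD c2.l hu.l f2).l, e⟩), _, _, c2, hu, f2, e1⟩

theorem nd_of (hfo : ∃ a ∈ D, ∃ b ∈ D, Fo a b) (hO : pCore 2 G = ⊥) (hZ : center G = ⊥) : ND D :=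
  ⟨H, hfo, hO, hZ, thmA0 H hfo⟩

end Cfsg.Agent.H8.RS
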