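import Cfsg.Agent.H8.RS4

/-! Root involutions: the equivalence classes are closed under products. -/

set_option autoImplicit false

namespace Cfsg.Agent.H8.RS

open RI ZD Subgroup

variable {G : Type*} [Group G] {D : Set G} {a a' b c d e f g k l p q s t u v w x y z : G}

theorem nod_of_K (hD : IsRootInvolutionSet D) (hb : b ∈ D) (h : K a b * K a b = 1) : ¬ Od a b :=
  fun o => o.1 (by
    have := eq_one_of_odd o.2 (k := 2) (by
      rw [← h]; simp only [K, pow_succ, pow_zero, one_mul, mul_assoc, Nat.reduceMul])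
    rw [eq_inv_of_mul_eq_one_left this, inv_eq hD hb])

variable [Finite G] (H : ND D)
include H

theorem typeI1 (hu : u ∈ D) (ha : a ∈ D) (ha' : a' ∈ D) (e : Ee D a a') (f : Fo u a) (hx : Co D x u)
    (h1 : K (K u a) x = u) (h2 : K (K u a') x = u) (hs : Co D s (K u a)) (h3 : K u s = K u a)
    (h4 : orderOf (x * s) = 3) (h5 : Fo s (K u a')) : False := by
  have hD := H.rt
  have f' : Fo u a' := (e.fo hD ha ha' hu f.symm).symm
  have c1 := co_l hD hu ha f
  have c2 := co_r hD hu ha f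
  have c3 := co_l hD hu ha' f'
  have c4 := co_r hD hu ha' f'
  have uu := sq hD hu
  have aa := sq hD ha
  have aa' := sq hD ha'
  have xx := sq hD hx.l
  have ss := sq hD hs.l
  have fx : Fo (K u a) x := fo_of_K hD c1.l hx.l (c1.nod hD hx.l hx.c) (h1.symm ▸ RI.ne_one hD hu)
  have t1 := braid3 aa xx (three' hD c1.symm ⟨c2.symm, f, rfl⟩ hx.l fx h1)
  have t2 := braid3 xx ss h4
  have pa' := (e _ c1.l).1 c2.c
  have qa := (e _ c3.l).2 c4.c
  have pq : K u a * K u a' = K u a' * K u a := comm_K c1.c pa'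
  have ua := conj_K' uu a
  have ua' := conj_K' uu a'
  have us := conj_K' uu s
  have px := conj_K' (sq hD c1.l) x
  have qx := conj_K' (sq hD c3.l) x
  have qs := conj_K' (sq hD c3.l) s
  have k1 := co_l hD hs.l c3.l h5
  have k2 := co_r hD hs.l c3.l h5
  have pk : K u a * K s (K u a') = K s (K u a') * K u a := comm_K hs.c.symm pq
  rw [h3] at us
  rw [h1] at px
  rw [h2] at qx
  rw [K_swap hD hs.l c3.l fun o => o.not_fo h5] at qs
  generalize K u a = p at *
  generalize K u a' = q at *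
  generalize K s q = k at *
  have pp := sq hD c1.l
  have qq := sq hD c3.l
  have kk := sq hD k1.l
  have n1' : a' * (a * u * a) * a' = u * (q * p) := by
    rw [mul_assoc a, ← mul_one (u * a), mul_assoc u, ua, mul_one, mul_assoc, mul_assoc, pa', ua']
  have m1 : Co D (u * (q * p)) p := by
    have := (c1.symm.conj hD a).conj hD a'
    rw [inv_eq hD ha, inv_eq hD ha', n1'] at this
    simpa only [mul_assoc, c2.c, ii aa, pa', ii aa'] using this
  have n2 : K (u * (q * p)) s = p * k := K_of_conj (sq hD m1.l) (by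
    calc _ = s * (u * (s * (s * (q * (s * p))))) := by simp only [mul_assoc, ii ss, hs.c]
      _ = _ := by rw [us, qs, cc pq, ← pk, ii pp, mul_assoc, mul_assoc, ii pp])
  have ek : Ee D k p := tT H.toNC H.fo k1.l c1.l fun g hg => comm_of_mul hg.c (by
    rw [← n2]
    rcases K_cases hD m1.l hs.l (m1.nod hD hs.l hs.c) with h | h
    · rw [h, mul_one, one_mul]
    · exact (H.A m1 hs h g hg.l).2 hg.c)
  have ka := (ek a ha).2 c2.c.symm
  have ka' := (ek a' ha').2 pa'.symm
  have ku := (ek u hu).2 c1.c.symm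
  have m2 : u * k ∈ D := by
    have := conj_mem hD (conj_mem hD (conj_mem hD c3.symm.m hs.l) ha') ha
    have n : a * (a' * (s * (u * q) * s) * a') * a = u * k := by
      calc _ = a * (a' * (s * (u * (s * (s * (q * (s * 1)))))) * a') * a := by
            simp only [mul_assoc, ii ss, mul_one]
        _ = a * (a' * (u * (a' * (p * (q * (k * a)))))) := by
          rw [us, qs]; simp only [mul_assoc, mul_one, cc ka', cc pa'.symm, cc c4.c.symm]
        _ = a * (u * (a * (p * k))) := by rw [ua', cc pq, ii qq, ← ka, cc c2.c]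
        _ = _ := by rw [ua, ii pp]
    exact n ▸ this
  have kx := ek.symm.fo hD c1.l k1.l hx.l fx
  have ev := H.A (co_of hD hu k1.l m2).symm hx kx
  have v1 := co_l hD k1.l hx.l kx
  have vs := conj_K' (sq hD v1.l) s
  rw [s3 hD hs.l hx.l (by rwa [orderOf_mul_comm']) (mkP hD k1.symm kx)] at vs
  have kx' := conj_K' kk x
  generalize K k x = v at *
  have fv := ev.symm.fo hD hu v1.l ha' f'
  have r1 := co_l hD v1.l ha' fv
  have rk : k * K v a' = K v a' * k := comm_K v1.c.symm ka'.symm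
  have va' := conj_K' (sq hD v1.l) a'
  have vu := (ev u hu).2 rfl
  have vq := (ev q c3.l).2 c3.c
  have e3 := e.conj hD (s * x * s * (a * x * a))
  have c5 := c4.conj hD (s * x * s * (a * x * a))
  have i1 : (s * x * s * (a * x * a))⁻¹ = a * x * a * (s * x * s) := by
    simp only [mul_inv_rev, inv_eq hD ha, inv_eq hD hx.l, inv_eq hD hs.l, mul_assoc]
  have n3 : s * x * s * (a * x * a) * a * (a * x * a * (s * x * s)) = s := by
    have t1' : ∀ z, a * (x * (a * z)) = x * (a * (x * z)) := fun z => by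
      simpa only [mul_assoc] using congrArg (· * z) t1
    simp only [mul_assoc, ii aa]
    rw [t1', ii xx, ii aa, ← t2, ii xx, ii ss, xx, mul_one]
  have n4 : s * x * s * (a * x * a) * q * (a * x * a * (s * x * s)) = q * (k * v) := by
    calc _ = s * (x * (s * (a * (x * (q * (x * (a * (s * (x * s))))))))) := by
          simp only [mul_assoc, cc qa, ii aa]
      _ = s * (x * (s * (q * (s * (s * (u * (s * (p * (x * s))))))))) := by
          rw [qx, cc qa.symm, ua, ii ss, cc hs.c]
      _ = s * (x * (q * (x * (x * (k * (x * (u * s))))))) := by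
          rw [qs, us, ii pp, ii xx, cc hx.c]
      _ = s * (q * (s * (k * (s * (v * (s * 1)))))) := by
          rw [qx, kx', cc ku, cc vu, ii uu, cc k1.c, ii ss, mul_one]
      _ = _ := by rw [qs, vs, ii kk, mul_one, v1.c]
  rw [i1, n3] at e3
  rw [i1, n4] at c5
  have n5 : K (q * (k * v)) a' = K v a' := K_of_conj (sq hD c5.l) (by
    simp only [mul_assoc, cc c4.c.symm, cc ka', conj_K (sq hD v1.l) a' ▸ mul_assoc a' v a'])
  have sr : s * K v a' = K v a' * s := ((e3 _ r1.l).2 (n5 ▸ n1 H.toNC c5.symm ha'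
    (nod_of_K hD ha' (n5 ▸ sq hD r1.l)) fun o => hs.nod hD ha' pa'.symm
      (e3.symm.od hD c5.r hs.l ha' o)).symm).symm
  generalize K v a' = r at *
  have sa : ¬ Od a' s := fun o => hs.nod hD ha' pa'.symm o.symm
  have m3 : v * K a' s = K a' s * v := by
    have : a' * (v * (a' * 1)) = s * (a' * (s * (v * (s * (a' * (s * 1)))))) := by
      rw [vs, ← cc ka', va', va', cc k1.c, ← cc sr, vs, cc rk, ii kk]
    have := congrArg (fun z => a' * (z * (s * (a' * s)))) this
    simpa only [K, mul_assoc, mul_one, ii aa', ii ss, ss] using this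
  have m4 : u * K a' s = K a' s * u := by
    rcases K_cases hD ha' hs.l sa with h | h
    · rw [h, mul_one, one_mul]
    · exact ((ev _ (co_l hD ha' hs.l h).l).1 m3.symm).symm
  have : a' * (u * (a' * 1)) = s * (a' * (s * (u * (s * (a' * (s * 1)))))) := by
    have := congrArg (fun z => a' * (z * (s * (a' * s)))) m4
    simpa only [K, mul_assoc, mul_one, ii aa', ii ss, ss] using this
  rw [us, cc pa', ua', ua', ← cc hs.c, ← ii ss (q * (s * _)), us, qs, ← cc pq.symm, ← cc pk.symm,
    ii pp] at this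
  exact RI.ne_one hD k1.l (by simpa using this)

theorem typeI (hu : u ∈ D) (ha : a ∈ D) (ha' : a' ∈ D) (e : Ee D a a') (f : Fo u a) (hx : Co D x u)
    (h1 : K (K u a) x = u) (h2 : K (K u a') x = u) : Ee D (K u a') (K u a) := by
  have hD := H.rt
  have f' : Fo u a' := (e.fo hD ha ha' hu f.symm).symm
  have c1 := co_l hD hu ha f
  have c2 := co_r hD hu ha f
  have c3 := co_l hD hu ha' f'
  have c4 := co_r hD hu ha' f'
  have pa' := (e _ c1.l).1 c2.c
  have pq : K u a * K u a' = K u a' * K u a := comm_K c1.c pa'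
  have fx : Fo (K u a) x := fo_of_K hD c1.l hx.l (c1.nod hD hx.l hx.c) (h1.symm ▸ RI.ne_one hD hu)
  have key : ∀ s, Co D s (K u a) → s * K u a' ≠ K u a' * s → s * u = u * s := fun s hs n =>
    by_contra fun n' => by
      obtain ⟨y, y1, y2, y3, -, y5, y6⟩ := SC3 H c1.l hx.l fx hs
        (h1.symm ▸ fo_of hD hs.l hu (hs.nod hD hu c1.c.symm) n')
      have c5 := co_l hD c1.l y1.l y2
      rw [h1] at y5
      exact typeI1 H hu ha ha' e f hx h1 h2 c5 y5 y6
        (y3.symm.fo hD hs.l c5.l c3.l (fo_of hD hs.l c3.l (hs.nod hD c3.l pq.symm) n))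
  refine tT H.toNC H.fo c3.l c1.l fun s hs => by_contra fun n => ?_
  have aa := sq hD ha'
  have c5 : Co D (a' * s * a') (K u a) := by
    simpa only [inv_eq hD ha', mul_assoc, pa', ii aa] using hs.conj hD a'
  have n1' : a' * s * a' * K u a' ≠ K u a' * (a' * s * a') := fun e => n (by
    have := congrArg (fun z => a' * z * a') e
    simpa only [mul_assoc, ii aa, aa, mul_one, cc c4.c.symm] using this)
  have k1 := key _ c5 n1'
  have k2 : s * (a' * u * a') = a' * u * a' * s := by
    have := congrArg (fun z => a' * z * a') k1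
    simpa only [mul_assoc, ii aa, aa, mul_one] using this
  rw [conj_K (sq hD hu)] at k2
  exact n (comm_of_mul (key s hs n) k2)

variable (hT : ∀ b ∈ D, ∀ b' ∈ D, Ee D b b' → ∀ v ∈ D, Fo v b → K v b = K v b' → b = b')
include hT

theorem hE_of : ∀ a ∈ D, ∀ b ∈ D, Ee D a b → a ≠ b → a * b ∈ D := by
  intro u hu u1 hu1 e1 hne
  have hD := H.rt
  obtain ⟨a0, ha0, b0, hb0, f0⟩ := H.fo
  obtain ⟨g, rfl⟩ := H.cl a0 ha0 u hu
  have f := f0.conj g
  have ha := hD.conj_mem b0 hb0 g
  generalize g * a0 * g⁻¹ = u at *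
  generalize g * b0 * g⁻¹ = a at *
  have uu := sq hD hu
  have c1 := co_l hD hu ha f
  obtain ⟨x, hx⟩ := es H.toNC c1 fun e =>
    f.not_comm hD hu ha ((e a ha).1 (co_r hD hu ha f).c.symm).symm
  have hx' := hx.co.l
  have xx := sq hD hx'
  have o := od_of_three hD ha (three' hD c1.symm ⟨(co_r hD hu ha f).symm, f, rfl⟩ hx' hx.fo hx.eq)
  have A : ∀ b ∈ D, Ee D a b → Fo u b ∧ Fo (K u b) x := fun b hb e =>
    have f' : Fo u b := (e.fo hD ha hb hu f.symm).symm
    ⟨f', (P_of hD (co_r hD hu hb f') hx' (e.od hD ha hb hx' o)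
      ((co_l hD hu hb f').nod hD hx' hx.co.c)).2.2.2⟩
  have B : ∀ b ∈ D, Ee D a b → ∀ c ∈ D, Ee D a c → K u b * K u c = K u c * K u b ∧
      b * c * u * (b * c) = u * (K u b * K u c) := fun b hb e c hc e' => by
    have e2 := e.symm.trans e'
    have d1 := co_l hD hu hc (A c hc e').1
    have d2 := (e2 _ d1.l).2 (co_r hD hu hc (A c hc e').1).c
    refine ⟨(comm_K d1.c d2).symm, ?_⟩
    conv_lhs => enter [2]; rw [e2.comm hb]
    rw [mul_assoc, mul_assoc, conj_K' uu, d2, conj_K' uu]
  let SA := {v // v ∈ D ∧ Ee D a v}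
  let SU := {v // v ∈ D ∧ Ee D u v}
  let Φ : SA → SU := fun v => ⟨K (K u v.1) x, by
    have k := A _ v.2.1 v.2.2
    have k1 := co_l hD hu v.2.1 k.1
    exact ⟨(co_l hD k1.l hx' k.2).l, (H.A k1 hx.co k.2).symm⟩⟩
  have hΦ : Function.Injective Φ := by
    rintro ⟨b, hb, eb⟩ ⟨c, hc, ec⟩ e0
    have e0 : K (K u b) x = K (K u c) x := congrArg Subtype.val e0
    refine Subtype.ext ?_
    dsimp only
    have e2 := eb.symm.trans ec
    obtain ⟨fb, fb'⟩ := A b hb eb
    obtain ⟨fc, fc'⟩ := A c hc ec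
    obtain ⟨b1, b2⟩ := B b hb eb c hc ec
    have d1 := co_l hD hu hb fb
    have d2 := co_l hD hu hc fc
    have w1 : (b * c)⁻¹ = b * c := by rw [mul_inv_rev, inv_eq hD hb, inv_eq hD hc, e2.comm hb]
    have x1 : x * (K u b * K u c) = K u b * K u c * x := by
      have := congrArg (fun z => K u b * z * x * K u c) e0
      have k1 := sq hD d1.l
      have k2 := sq hD d2.l
      generalize K u b = p at *
      generalize K u c = q at *
      simpa only [K, mul_assoc, ii xx, ii k1, k2, mul_one] using this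
    have x2 := hx.co.conj hD (b * c)
    have n1' : ¬ Od (b * c * x * (b * c)⁻¹) x := x2.nod hD hx' (by
      rw [w1, b2]; exact comm_mul hx.co.c x1)
    obtain ⟨y, y1, y2, y3, y4, y5, y6⟩ := SC3 H hu hb fb hx.co fb'.symm
    have d3 := co_l hD hu y1.l y2
    have t1 := ((DI hD hb hc d3.l y6 e2).resolve_right fun o => n1' (by
      conv at o => enter [2, 2]; rw [← w1]
      exact (y3.conj hD (b * c)).od hD (hD.conj_mem _ d3.l _) x2.l hx'
        (y3.od hD d3.l hx' (hD.conj_mem _ d3.l _) o).symm)).1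
    rw [orderOf_mul_comm'] at t1
    have s1 := s3 hD d3.l hc t1 (mkP hD d3 fc)
    have e3 := typeI H hu hb hc e2 fb d3 y5 s1
    have f1 := e3.symm.fo hD d1.l d2.l d3.l y4
    refine hT b hb c hc e2 u hu fb (hT _ d1.l _ d2.l e3.symm _ d3.l y4.symm ?_)
    rw [K_swap hD d1.l d3.l fun o => o.not_fo y4, K_swap hD d2.l d3.l fun o => o.not_fo f1, y5, s1]
  obtain ⟨k, hk⟩ := H.cl u hu a ha
  let Ψ : SU → SA := fun v => ⟨k * v.1 * k⁻¹, hD.conj_mem _ v.2.1 k, hk ▸ v.2.2.conj hD k⟩
  have hΨ : Function.Injective Ψ := fun v w e => Subtype.ext (by simpa [Ψ] using congrArg Subtype.val e)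
  obtain ⟨v, hv⟩ := Finite.surjective_of_injective (hΦ.comp hΨ) ⟨u1, hu1, e1⟩
  obtain ⟨b, hb, eb, e0⟩ : ∃ b ∈ D, Ee D a b ∧ K (K u b) x = u1 :=
    ⟨_, (Ψ v).2.1, (Ψ v).2.2, congrArg Subtype.val hv⟩
  obtain ⟨b1, b2⟩ := B a ha (Ee.refl _) b hb eb
  have m : u * (K u a * K u b) ∈ D := by
    have := hD.conj_mem u hu (a * b)
    rwa [mul_inv_rev, inv_eq hD hb, inv_eq hD ha, ← eb.comm ha, b2] at this
  have d2 := co_l hD hu hb (A b hb eb).1
  have q1 := conj_K' (sq hD c1.l) x
  have q2 := conj_K' (sq hD d2.l) x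
  rw [hx.eq] at q1
  rw [e0] at q2
  have n : K (u * (K u a * K u b)) x = u * u1 := K_of_conj (sq hD m) (by
    calc _ = u * (x * (K u a * (x * (x * (K u b * (x * 1)))))) := by
          simp only [mul_assoc, ii xx, mul_one, cc hx.co.c]
      _ = _ := by rw [q1, q2, ← cc d2.c, mul_one, mul_assoc, mul_assoc])
  have u2 := e1.comm hu
  have n2 := nod_of_K hD hx' (a := u * (K u a * K u b))
    (by rw [n]; exact K_eq_one uu (sq hD hu1) u2)
  exact n ▸ (co_l hD m hx' (fo_of_K hD m hx' n2 fun e => hne (by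
    rw [n] at e
    rw [eq_inv_of_mul_eq_one_left e, inv_eq hD hu1]))).l

end Cfsg.Agent.H8.RS
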