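import Cfsg.Agent.H8.RS5
import Cfsg.Agent.L.Core

/-! Root involutions: products of two equivalent members. -/

set_option autoImplicit false
set_option linter.style.haveILetI false

namespace Cfsg.Agent.H8.RS

open RI ZD Subgroup

variable {G : Type*} [Group G] {D : Set G} {a a' b b' c d e f f' g k l p q r s t u v w x y z : G}

/-- `r` is the product of `f` with an equivalent member -/
structure Om (D : Set G) (r f : G) : Prop where
  l : f ∈ D
  m : f * r ∈ D
  e : Ee D f (f * r)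
  n : r ≠ 1

theorem Om.cm (h : Om D r f) (hg : g ∈ D) (e : g * f = f * g) : g * r = r * g :=
  comm_of_mul e ((h.e g hg).1 e)

theorem Om.self (h : Om D r f) : f * r = r * f := h.cm h.l rfl

section
variable (hD : IsRootInvolutionSet D)
include hD

theorem Om.sq (h : Om D r f) : r * r = 1 := by
  have := RI.sq hD h.m
  rwa [mul_assoc, ← cc h.self, ii (RI.sq hD h.l)] at this

theorem Om.conj (h : Om D r f) (g : G) : Om D (g * r * g⁻¹) (g * f * g⁻¹) :=
  ⟨hD.conj_mem _ h.l g, by rw [conj_mul]; exact hD.conj_mem _ h.m g,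
    by rw [conj_mul]; exact h.e.conj hD g, fun e => h.n (by simpa using e)⟩

theorem Om.cj (h : Om D r f) (hv : v ∈ D) (e : v * r = r * v) : Om D r (f * K f v) := by
  have := h.conj hD v
  rwa [e, mul_inv_cancel_right, inv_eq hD hv, conj_K (RI.sq hD h.l)] at this

theorem O3 (h : Om D r f) (hy : y ∈ D) (n : ¬ Od y f) : y * (r * y * r) = r * y * r * y := by
  have yy := RI.sq hD hy
  rcases K_cases hD hy h.l n with k | k
  · rw [← h.cm hy (comm_of_sq yy (RI.sq hD h.l) k), mul_assoc y r r, h.sq hD, mul_one]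
  have k' := (h.e.fo hD h.l h.m hy k.symm).symm
  have c1 := co_l hD hy h.l k
  have c2 := (h.e _ c1.l).1 (co_r hD hy h.l k).c
  have e : r * y * r = y * (K y (f * r) * K y f) := by
    calc _ = f * r * (f * (y * (f * (f * r)))) := by
          simp only [mul_assoc, ii (RI.sq hD h.l), ← cc h.self]
      _ = _ := by rw [conj_K' yy, c2, conj_K' yy]
  rw [e]
  exact comm_mul rfl (comm_mul (co_l hD hy h.m k').c.symm c1.c.symm)

end

variable [Finite G] (H : ND D)
include H

theorem O4 (h : Om D r f) (hv : v ∈ D) (e : v * r = r * v) : ¬ Od f v := fun o =>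
  h.n (NF H h.l hv o (fun _ he => h.cm he.l he.c) e)

theorem O2 (h : Om D r f) (hv : v ∈ D) (e : v * r = r * v) (k : Fo f v) : Om D r (K f v) := by
  have hD := H.rt
  have h1 := h.cj hD hv e
  have c1 := co_l hD h.l hv k
  have c2 := c1.symm.mul_l hD
  obtain ⟨u, hu⟩ := es H.toNC c2.symm fun e' => by
    have := ee_mul H.toNC e' c2.symm
    rw [ii (sq hD h.l)] at this
    exact k.not_comm hD h.l hv ((this v hv).1 (co_r hD h.l hv k).c.symm).symm
  have := h.cj hD hu.co.l (h1.cm hu.co.l hu.co.c)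
  rwa [hu.eq, ii (sq hD h.l)] at this

theorem O5 (h : Om D r f) (hy : y ∈ D) (n : ¬ Od y (r * y * r)) : y * (r * y * r) = r * y * r * y := by
  have hD := H.rt
  have rr := h.sq hD
  have m : r * y * r ∈ D := by simpa only [inv_eq_of_mul_eq_one_right rr] using hD.conj_mem y hy r
  by_contra hn
  have k := fo_of hD hy m n hn
  have c1 := co_l hD hy m k
  have e : K y (r * y * r) * r = r * K y (r * y * r) := by
    conv_lhs => rw [← K_swap hD hy m n]
    simp only [K, mul_assoc]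
  have n1' := O4 H h c1.l e
  rcases K_cases hD h.l c1.l n1' with k1 | k1
  · exact hn (O3 hD h hy (c1.symm.nod hD h.l (comm_of_sq (sq hD h.l) (sq hD c1.l) k1)))
  · have c2 := co_r hD h.l c1.l k1
    exact hn (O3 hD (O2 H h c1.l e k1) hy (c1.symm.nod hD c2.l c2.c))

theorem baer (h : Om D r f) : ∃ y ∈ D, Od y (r * y * r) := by
  have hD := H.rt
  have rr := h.sq hD
  have ri := inv_eq_of_mul_eq_one_right rr
  by_contra hn
  push Not at hn
  haveI : Fact (Nat.Prime 2) := ⟨Nat.prime_two⟩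
  obtain ⟨g, g1, go, e⟩ := H3.exists_inverted_odd (t := r)
    (orderOf_eq_prime (by rw [_root_.sq, rr]) h.n) fun N _ hN hw => h.n (H.hO.le (L.le_pCore hN hw))
  have h1 := h.conj hD g
  have k0 : g * r * g⁻¹ = g * f * g⁻¹ * (g * f * g⁻¹ * (g * r * g⁻¹)) := (ii (sq hD h1.l) _).symm
  have k1 := O5 H h h1.l (hn _ h1.l)
  have k2 := O5 H h h1.m (hn _ h1.m)
  have m : r * (g * f * g⁻¹) * r ∈ D := by simpa only [ri] using hD.conj_mem _ h1.l r
  have k3 := ((h1.e _ m).1 k1.symm).symm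
  have s1 := h1.sq hD
  generalize g * f * g⁻¹ * (g * r * g⁻¹) = z at *
  generalize g * f * g⁻¹ = y at *
  have k4 : y * (r * z * r) = r * z * r * y := by
    have := congrArg (fun w => r * w * r) k3
    simpa only [mul_assoc, ii rr, rr, mul_one] using this.symm
  have k5 : y * z * (r * y * r * (r * z * r)) = r * y * r * (r * z * r) * (y * z) :=
    (comm_mul (comm_mul k1 k4).symm (comm_mul k3 k2).symm).symm
  have k6 : r * y * r * (r * z * r) = r * (g * r * g⁻¹) * r := by
    rw [k0]; simp only [mul_assoc, ii rr]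
  rw [k6, ← k0] at k5
  have k7 := K_eq_one s1 (by simp only [mul_assoc, ii rr] at s1 ⊢; rw [← mul_assoc g⁻¹, inv_mul_cancel,
    one_mul, ii rr, mul_inv_cancel_left, rr]) k5
  have e' : ∀ x, r * (g * (r * x)) = g⁻¹ * x := fun x => by rw [← e, ri]; simp only [mul_assoc]
  have e'' : ∀ x, r * (g⁻¹ * (r * x)) = g * x := fun x => by
    rw [← e', ii rr, ii rr]
  refine g1 (eq_one_of_odd go (k := 3) ?_)
  rw [← k7, K]
  have : g * r * g⁻¹ * (r * (g * r * g⁻¹) * r) = g * g * (g * g) := by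
    simp only [mul_assoc]
    rw [e'', ← mul_one (g⁻¹ * r), mul_assoc g⁻¹, e'', mul_one]
  rw [this]
  simp only [pow_succ, pow_zero, one_mul, mul_assoc, Nat.reduceMul]

theorem Sst (h : Om D r a) (hs : Om D r s) (c : Co D s a) (hu : u ∈ D) (k : Fo a u) (o : Od s u) :
    Ee D u (r * u * r) := by
  have hD := H.rt
  have c1 := co_l hD h.l hu k
  obtain ⟨y, y1, y2, -, -, -, y6⟩ := SC3 H h.l hu k c (fo_of hD hs.l c1.l (c.nod hD c1.l c1.c)
    fun e => (co_r hD h.l hu k).symm.nod hD hs.l e o.symm)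
  have h1 := O2 H h y1.l (hs.cm y1.l y1.c) y2
  rw [orderOf_mul_comm'] at y6
  have := DI hD h1.l h1.m hu y6 h1.e
  rw [ii (sq hD h1.l)] at this
  have m : r * u * r ∈ D := by
    simpa only [inv_eq_of_mul_eq_one_right (h.sq hD)] using hD.conj_mem u hu r
  exact (this.resolve_right fun o' =>
    o'.not_comm hD hu m (O3 hD h hu fun o => o.symm.not_fo k)).2

/-- special to a member which commutes with some member of `Om` -/
def Good (D : Set G) (r s : G) : Prop := Om D r s ∧ ∃ u ∈ D, Fo s u ∧ ∃ a, Om D r a ∧ u * a = a * u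

theorem NR (hs : Good D r s) (hy : y ∈ D) (o : Od y (r * y * r)) (hu : Co D u y) : Od s u := by
  have hD := H.rt
  by_contra hn
  obtain ⟨h0, w, hw, f0, a, ha, wa⟩ := hs
  have ri := inv_eq_of_mul_eq_one_right (h0.sq hD)
  have m : r * y * r ∈ D := by simpa only [ri] using hD.conj_mem y hy r
  have yo : ∀ f, Om D r f → Od f y := fun f h => Od.symm (by_contra fun n =>
    o.not_comm hD hy m (O3 hD h hy n))
  have A : ∀ f, Om D r f → ¬ Od f u → Fo u f ∧ Fo (K u f) y := fun f h n =>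
    have k := fo_of hD hu.l h.l (fun o => n o.symm) fun e => hu.symm.nod hD h.l e.symm (yo f h).symm
    ⟨k, (P_of hD (co_r hD hu.l h.l k) hy (yo f h) ((co_l hD hu.l h.l k).nod hD hy hu.c.symm)).2.2.2⟩
  have B : ∀ f, Om D r f → ¬ Od f u → ∀ f', Om D r f' → Co D f' f → ¬ Od f' u :=
    fun f h n f' h' c o' => by
      have c2 := hu.conj hD r
      rw [ri] at c2
      exact c2.symm.nod hD hy ((Sst H h h' c hu.l (A f h n).1.symm o' y hy).1 hu.c.symm) o.symm
  have C : ∀ f, Om D r f → ¬ Od f u → K (K u f) y ∈ D ∧ Ee D u (K (K u f) y) := fun f h n =>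
    have k := co_l hD hu.l h.l (A f h n).1
    ⟨(co_l hD k.l hy (A f h n).2).l, (H.A k hu.symm (A f h n).2).symm⟩
  have M : ∀ f, Om D r f → ¬ Od f u → ∀ f', Om D r f' → Om D r (f' * f) →
      K (K u f') y * K (K u f) y ∈ D := fun f h n f' h' h2 => by
    have c := co_of hD h'.l h.l h2.l
    have n' := B f h n f' h' c
    have n2 := B f h n _ h2 (c.mul_r hD)
    have k1 := co_l hD hu.l h.l (A f h n).1
    have k2 := co_l hD hu.l h'.l (A f' h' n').1
    have e1 : f' * K u f = K u f * f' := by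
      rw [K_swap hD h.l hu.l n]; exact n1 H.toNC c hu.l n n'
    have e2 : K u (f' * f) = K u f' * K u f := K_of_conj (sq hD hu.l) (by
      conv_lhs => enter [2]; rw [c.c]
      rw [mul_assoc, mul_assoc, conj_K' (sq hD hu.l), ← e1, conj_K' (sq hD hu.l)])
    have e3 := ((C f' h' n').2 _ k1.l).1 k1.c
    have := (C _ h2 n2).1
    rw [e2] at this
    convert this using 1
    refine (K_of_conj (sq hD (e2 ▸ (co_l hD hu.l h2.l (A _ h2 n2).1).l)) ?_).symm
    calc _ = y * K u f' * y * (y * K u f * y) := by simp only [mul_assoc, ii (sq hD hy)]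
      _ = _ := by rw [conj_K (sq hD k1.l), conj_K (sq hD k2.l)]; simp only [mul_assoc, cc e3]
  have E : ∀ c ∈ D, Ee D w c → Fo s c ∧ c * r = r * c := fun c hc e =>
    ⟨(e.fo hD hw hc h0.l f0.symm).symm, ha.cm hc ((e a ha.l).1 wa.symm).symm⟩
  have F : ∀ c ∈ D, Ee D w c → Om D r (K s c) ∧ ¬ Od (K s c) u := fun c hc e =>
    have k := O2 H h0 hc (E c hc e).2 (E c hc e).1
    ⟨k, B s h0 hn _ k (co_l hD h0.l hc (E c hc e).1)⟩
  obtain ⟨g, rfl⟩ := H.cl u hu.l w hw
  have key : ∀ n : ℕ, ∃ T : Fin n → G, (∀ i, T i ∈ D ∧ Ee D u (T i)) ∧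
      ∀ i j, i ≠ j → T i * T j ∈ D := by
    intro n
    induction n with
    | zero => exact ⟨Fin.elim0, fun i => i.elim0, fun i => i.elim0⟩
    | succ n ih =>
      obtain ⟨T, h1, h2⟩ := ih
      have h3 : ∀ i, g * T i * g⁻¹ ∈ D := fun i => hD.conj_mem _ (h1 i).1 g
      have h4 : ∀ i, Ee D (g * u * g⁻¹) (g * T i * g⁻¹) := fun i => (h1 i).2.conj hD g
      have h5 : ∀ i, K (K u s) y * K (K u (K s (g * T i * g⁻¹))) y ∈ D := fun i =>
        M _ (F _ (h3 i) (h4 i)).1 (F _ (h3 i) (h4 i)).2 s h0 (h0.cj hD (h3 i) (E _ (h3 i) (h4 i)).2)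
      refine ⟨Fin.cons (K (K u s) y) fun i => K (K u (K s (g * T i * g⁻¹))) y, fun i => ?_,
        fun i j => ?_⟩
      · refine Fin.cases (C s h0 hn) (fun i => ?_) i
        exact C _ (F _ (h3 i) (h4 i)).1 (F _ (h3 i) (h4 i)).2
      refine Fin.cases (Fin.cases (fun e => absurd rfl e) (fun j _ => h5 j) j)
        (fun i => Fin.cases (fun _ => ?_) (fun j e => ?_) j) i
      · exact (co_of hD (C s h0 hn).1 (C _ (F _ (h3 i) (h4 i)).1 (F _ (h3 i) (h4 i)).2).1 (h5 i)).symm.m
      have m1 : g * T i * g⁻¹ * (g * T j * g⁻¹) ∈ D := by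
        rw [conj_mul]; exact hD.conj_mem _ (h2 i j fun e' => e (by rw [e'])) g
      have e1 := (h4 i).symm.trans (h4 j)
      have c1 := co_of hD (h3 i) (h3 j) m1
      have c2 := co_r hD h0.l (h3 j) (E _ (h3 j) (h4 j)).1
      have e2 := (e1 _ c2.l).2 c2.c
      have k := (F _ m1 ((h4 i).trans (ee_mul H.toNC e1 c1).symm)).1
      refine M _ (F _ (h3 j) (h4 j)).1 (F _ (h3 j) (h4 j)).2 _ (F _ (h3 i) (h4 i)).1 ?_
      generalize g * T i * g⁻¹ = c at *
      generalize g * T j * g⁻¹ = c' at *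
      convert k using 1
      refine (K_of_conj (sq hD h0.l) ?_).symm
      conv_lhs => enter [2]; rw [c1.c]
      rw [mul_assoc, mul_assoc, conj_K' (sq hD h0.l), e2, conj_K' (sq hD h0.l)]
  obtain ⟨T, h1, h2⟩ := key (Nat.card G + 1)
  have := Nat.card_le_card_of_injective T fun i j e => by_contra fun n =>
    RI.ne_one hD (h2 i j n) (by rw [e, sq hD (h1 j).1])
  simp at this

theorem TI (hb : b ∈ D) (hb' : b' ∈ D) (e : Ee D b b') (hv : v ∈ D) (f : Fo v b)
    (h : K v b = K v b') : b = b' := by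
  have hD := H.rt
  by_contra hne
  have bb := sq hD hb
  have h0 : Om D (b * b') b := ⟨hb, by rwa [ii bb], by rwa [ii bb], fun e =>
    hne (by rw [eq_inv_of_mul_eq_one_left e, inv_eq hD hb'])⟩
  have vr : v * (b * b') = b * b' * v := by
    have := congrArg (fun w => b * (v * w) * b') h
    simpa only [K, mul_assoc, ii (sq hD hv), ii bb, sq hD hb', mul_one] using this
  generalize b * b' = r at *
  have rr := h0.sq hD
  have g0 : Good D r b := ⟨h0, v, hv, f.symm, _, O2 H h0 hv vr f.symm, (co_r hD hb hv f.symm).c.symm⟩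
  obtain ⟨y, hy, o⟩ := baer H h0
  have m : r * y * r ∈ D := by simpa only [inv_eq_of_mul_eq_one_right rr] using hD.conj_mem y hy r
  have yo : ∀ f, Om D r f → Od f y := fun f h => Od.symm (by_contra fun n =>
    o.not_comm hD hy m (O3 hD h hy n))
  obtain ⟨c, hc, cr, zy, cy, -⟩ := dih hD rr hy o
  have c2 := sq hD hc
  obtain ⟨a, ga, ca⟩ : ∃ a, Good D r a ∧ c * a = a * c := by
    rcases K_cases hD hb hc (O4 H h0 hc cr) with k | k
    · exact ⟨b, g0, (comm_of_sq bb c2 k).symm⟩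
    have c1 := co_l hD hb hc k
    have c3 := co_r hD hb hc k
    obtain ⟨u, hu⟩ := es H.toNC c1 fun e => k.not_comm hD hb hc ((e c hc).1 c3.c.symm).symm
    exact ⟨_, ⟨O2 H h0 hc cr k, u, hu.co.l, hu.fo, b, h0, hu.co.c⟩, c3.c.symm⟩
  have ha := ga.1.l
  have ay := yo a ga.1
  obtain ⟨p, hp, pc⟩ : ∃ p, Co D p a ∧ p * c ≠ c * p := by
    by_contra h1
    push Not at h1
    have := NF H ha hy ay (fun e he => comm_mul (ga.1.cm he.l he.c) (h1 e he)) zy.symm
    obtain ⟨u, hu, k, a0, h2, h3⟩ := ga.2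
    have h4 := h2.cm hu h3
    rw [eq_inv_of_mul_eq_one_left this, inv_eq hD hc] at h4
    exact k.not_comm hD ha hu ((tT H.toNC H.fo hc ha h1 u hu).1 h4).symm
  have fp := (fo_of hD hp.l hc (hp.nod hD hc ca) pc).symm
  have k1 := co_l hD hc hp.l fp
  have pr := ga.1.cm hp.l hp.c
  have ak : a * K c p = K c p * a := comm_K ca.symm hp.c.symm
  have rk : r * K c p = K c p * r := comm_K cr.symm pr.symm
  have zp : p * (r * c) * p = r * c * K c p := by
    rw [mul_assoc r, ← conj_K c2]; simp only [mul_assoc, cc pr]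
  have nr : ∀ w ∈ D, Fo w y → Od a (K w y) := fun w hw f => NR H ga hy o (co_r hD hw hy f)
  have ky : Od (K c p) y := by_contra fun n => by
    have f1 := (P_of hD k1 hy cy n).2.2.2
    exact (co_l hD k1.l hy f1).nod hD ha ak (nr _ k1.l f1).symm
  generalize K c p = k at *
  have za : a * (r * c) = r * c * a := comm_mul ga.1.self ca.symm
  have zk : k * (r * c) = r * c * k := comm_mul rk.symm k1.c
  have zc : c * (r * c) = r * c * c := comm_mul cr rfl
  have ez : r * c * c = r := by rw [mul_assoc, c2, mul_one]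
  generalize r * c = z at *
  have cj : ∀ x ∈ D, ∀ w ∈ D, Od x w → x * z = z * x → w * z = z * w →
      ∀ g, Om D (z * x) g → ∃ g, Om D (z * w) g := fun x hx w hw o h1 h2 g hg => by
    obtain ⟨n, hn⟩ := exists_conj_of_od hD hx hw o
    have := hg.conj hD ((x * w) ^ n)
    rw [← conj_mul, hn, ← ((Commute.mul_right h1.symm h2.symm).zpow_right n).eq,
      mul_inv_cancel_right] at this
    exact ⟨_, this⟩
  obtain ⟨g, hg⟩ := cj c hc y hy cy zc zy.symm b (ez.symm ▸ h0)
  obtain ⟨g, hg⟩ := cj y hy k k1.l ky.symm zy.symm zk g hg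
  replace hg := hg.conj hD p
  rw [← zp, inv_eq hD hp.l] at hg
  have pp := sq hD hp.l
  simp only [mul_assoc, ii pp, pp, mul_one] at hg
  generalize p * (g * p) = g at hg
  have y1 : ∀ g, Om D z g → g * y = y * g := fun g hg => by_contra fun n => by
    have f1 := fo_of hD hg.l hy (O4 H hg hy zy.symm) n
    exact O4 H (O2 H hg hy zy.symm f1) ha za (nr g hg.l f1).symm
  have ag : g * a = a * g := by_contra fun n => by
    have f1 := fo_of hD hg.l ha (O4 H hg ha za) n
    exact (co_r hD hg.l ha f1).symm.nod hD hy (y1 _ (O2 H hg ha za f1)).symm ay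
  have f1 : Fo g p := (fo_of hD hp.l hg.l (hp.nod hD hg.l ag) fun e => RI.ne_one hD k1.l (by
    rw [hg.cm hp.l e, mul_assoc, pp, mul_one] at zp
    exact (mul_eq_left.1 zp.symm))).symm
  have f2 := hg.e.fo hD hg.l hg.m hp.l f1
  have l1 := co_l hD hg.l hp.l f1
  have l2 := co_l hD hg.m hp.l f2
  have ek : K g p * K (g * z) p = k := by
    have q1 := conj_K' (sq hD hg.l) p
    have q2 := conj_K (sq hD hg.m) p
    have q3 := (hg.e _ l1.l).1 l1.c
    have : p * (g * (p * (p * (g * z) * p))) = z * k := by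
      rw [← zp]; simp only [mul_assoc, ii pp, ii (sq hD hg.l)]
    rw [q1, q2, cc q3, ← mul_assoc, ii (sq hD hg.l)] at this
    exact mul_left_cancel this
  have gy := y1 g hg
  have l3 := co_of hD l1.l l2.l (ek ▸ k1.l)
  have := (L1 hD l3.m l2.l hy (l3.mul_r hD).c (l3.mul_r hD).m (ek ▸ ky)
    (l2.nod hD hy ((hg.e y hy).1 gy.symm))).2
  rw [mul_assoc, sq hD l2.l, mul_one] at this
  exact l1.nod hD hy gy.symm this

omit H in
theorem H1 (H : NC D) (hO : pCore 2 G = ⊥) (hZ : center G = ⊥) (hfo : ∃ a ∈ D, ∃ b ∈ D, Fo a b) :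
    ∀ a ∈ D, ∀ b ∈ D, Ee D a b → a ≠ b → a * b ∈ D :=
  hE_of (nd_of H hfo hO hZ) fun _ hb _ hb' e _ hv f h => TI (nd_of H hfo hO hZ) hb hb' e hv f h

end Cfsg.Agent.H8.RS
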