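import Cfsg.Agent.H8.ZD3

/-! Non-degenerate classes of root involutions: the collinearity graph is connected. -/

set_option autoImplicit false

namespace Cfsg.Agent.H8.ZD

open RI Subgroup FT

universe u

variable {G : Type u} [Group G] {D : Set G} {a b c d e g x : G}

/-- reachability in the collinearity graph -/
def Rp (D : Set G) (a b : G) : Prop := Relation.ReflTransGen (ProdAdj D) a b

theorem Rp.refl (a : G) : Rp D a a := Relation.ReflTransGen.refl
theorem Rp.trans (h : Rp D a b) (h' : Rp D b c) : Rp D a c := Relation.ReflTransGen.trans h h'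
theorem Rp.symm (h : Rp D a b) : Rp D b a := by
  induction h with
  | refl => exact Rp.refl _
  | tail _ h ih => exact Rp.trans (.single ⟨h.2.1, h.1, h.2.2.1.symm, h.2.2.2.1.symm,
      h.2.2.2.1 ▸ h.2.2.2.2⟩) ih
theorem Rp.mem (h : Rp D a b) (ha : a ∈ D) : b ∈ D := by
  induction h with
  | refl => exact ha
  | tail _ h _ => exact h.2.1

variable (hD : IsRootInvolutionSet D)
include hD

theorem Rp.single (ha : a ∈ D) (hb : b ∈ D) (h1 : a * b = b * a) (h2 : a * b ∈ D) : Rp D a b :=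
  Relation.ReflTransGen.single ⟨ha, hb, fun e => ne_one hD h2 (by rw [← e, sq hD ha]), h1, h2⟩
theorem Rp.conj (h : Rp D a b) (g : G) : Rp D (g * a * g⁻¹) (g * b * g⁻¹) := by
  induction h with
  | refl => exact Rp.refl _
  | tail _ h ih => exact ih.trans (Rp.single hD (hD.conj_mem _ h.1 g) (hD.conj_mem _ h.2.1 g)
      (by rw [conj_mul, conj_mul, h.2.2.2.1]) (by rw [conj_mul]; exact hD.conj_mem _ h.2.2.2.2 g))
theorem Rp.of_fo (ha : a ∈ D) (hb : b ∈ D) (h : Fo a b) : Rp D a (a * b * (a * b)) ∧ Rp D a b :=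
  have k := Rp.single hD ha (h.mem hD ha hb) (h.comm_left hD ha hb) (h.mul_left_mem hD ha hb)
  ⟨k, k.trans (Rp.single hD hb (h.mem hD ha hb) (h.comm_right hD ha hb)
    (h.mul_right_mem hD ha hb)).symm⟩

/-- the stabilizer of a component -/
def Rp.St (a : G) : Subgroup G where
  carrier := {g | Rp D a (g * a * g⁻¹)}
  one_mem' := by simpa using Rp.refl a
  mul_mem' {x y} hx hy := by
    simpa only [Set.mem_setOf_eq, mul_inv_rev, mul_assoc] using Rp.trans hx (Rp.conj hD hy x)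
  inv_mem' {x} hx := by
    simpa only [Set.mem_setOf_eq, mul_assoc, inv_mul_cancel_left, inv_inv, inv_mul_cancel, mul_one]
      using (Rp.conj hD hx x⁻¹).symm

theorem Rp.mem_St (h : Rp D a b) (h1 : g * b = b * g) : g ∈ Rp.St hD a :=
  h.trans (by simpa [h1] using (h.conj hD g).symm)

theorem Rp.comm (ha : a ∈ D) (hb : b ∈ D) (hn : ¬ Rp D a b) (h1 : a * b = b * a) (h : Rp D a c) :
    c * b = b * c := by
  have hc := h.mem ha
  rcases tri hD hc hb with h2 | h2 | h2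
  · exact h2
  · obtain ⟨n, e⟩ := exists_conj_of_od hD hc hb h2
    have : (c * b) ^ n ∈ Rp.St hD c :=
      zpow_mem (mul_mem ((Rp.refl c).mem_St hD rfl) (h.symm.mem_St hD h1.symm)) n
    exact absurd (h.trans (e ▸ this)) hn
  · exact absurd (h.trans (Rp.of_fo hD hc hb h2).2) hn

variable (hcl : ∀ a ∈ D, ∀ b ∈ D, ∃ g : G, b = g * a * g⁻¹) (hfo : ∃ a ∈ D, ∃ b ∈ D, Fo a b)
include hcl hfo

theorem exists_fo (hd : d ∈ D) : ∃ a ∈ D, ∃ b ∈ D, Fo a b ∧ a * b * (a * b) = d := by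
  obtain ⟨a, ha, b, hb, h⟩ := hfo
  obtain ⟨g, rfl⟩ := hcl _ (h.mem hD ha hb) d hd
  exact ⟨_, hD.conj_mem a ha g, _, hD.conj_mem b hb g, h.conj g, by simp only [conj_mul]⟩

theorem rp_conn [Finite G] (ha : a ∈ D) (hb : b ∈ D) : Rp D a b := by
  by_contra hn
  let X : G × G → Subgroup G := fun p => closure ({x | Rp D p.1 x} ∪ {p.2})
  let P : Set (G × G) := {p | p.1 ∈ D ∧ p.2 ∈ D ∧ ¬ (Rp D p.1 p.2 ∨ p.1 * p.2 = p.2 * p.1)}
  have hP : P.Nonempty := by
    by_contra h0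
    have : Rp.St hD a = ⊤ := by
      rw [eq_top_iff, ← hD.generates, closure_le]
      intro d hd
      rcases (by_contra fun e => h0 ⟨(a, d), ha, hd, e⟩ : Rp D a d ∨ a * d = d * a) with h | h
      · exact h.mem_St hD rfl
      · exact (Rp.refl a).mem_St hD h.symm
    obtain ⟨g, rfl⟩ := hcl a ha b hb
    exact hn (this.ge (mem_top g))
  obtain ⟨⟨a, c⟩, ⟨ha, hc, hac⟩, hmin⟩ := Set.exists_min_image P (fun p => ♯(X p)) (Set.toFinite _) hP
  dsimp only at ha hc hac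
  let S : Set G := {s | ∃ g ∈ X (a, c), Rp D (g * a * g⁻¹) s}
  have S1 : S ⊆ D := fun s ⟨g, _, h⟩ => h.mem (hD.conj_mem a ha g)
  have S2 : ∀ s ∈ S, s ∈ X (a, c) := fun s ⟨g, hg, h⟩ => by
    have : g⁻¹ * s * g ∈ X (a, c) := subset_closure (.inl (by simpa [mul_assoc] using h.conj hD g⁻¹))
    simpa [mul_assoc] using mul_mem (mul_mem hg this) (inv_mem hg)
  have S3 : ∀ g ∈ X (a, c), ∀ s ∈ S, g * s * g⁻¹ ∈ S := fun g hg s ⟨k, hk, h⟩ =>
    ⟨g * k, mul_mem hg hk, by simpa [mul_assoc] using h.conj hD g⟩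
  have S4 : ∀ s ∈ S, ∀ t, Rp D s t → t ∈ S := fun s ⟨k, hk, h⟩ t h' => ⟨k, hk, h.trans h'⟩
  have aS : a ∈ S := ⟨1, one_mem _, by simpa using Rp.refl a⟩
  have cS : c ∈ S := by
    obtain ⟨n, e⟩ := exists_conj_of_od hD ha hc ((tri hD ha hc).resolve_left (fun e => hac (.inr e))
      |>.resolve_right fun e => hac (.inl (Rp.of_fo hD ha hc e).2))
    exact e ▸ S3 _ (zpow_mem (mul_mem (S2 a aS) (subset_closure (.inr rfl))) n) a aS
  have rt := rt_sub hD S1 (fun x hx y hy => by simpa [inv_eq hD (S1 hx)] using S3 x (S2 x hx) y hy)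
    fun x hx y hy h => S4 x hx _ (Rp.of_fo hD (S1 hx) (S1 hy) h).1
  have tr : ∀ x ∈ S, ∀ y ∈ S, ∀ z ∈ S, (Rp D x y ∨ x * y = y * x) → (Rp D y z ∨ y * z = z * y) →
      Rp D x z ∨ x * z = z * x := by
    intro x hx y hy z hz h1 h2
    by_cases k1 : Rp D x y
    · by_cases k2 : Rp D y z
      · exact .inl (k1.trans k2)
      · exact .inr (Rp.comm hD (S1 hy) (S1 hz) k2 (h2.resolve_left k2) k1.symm)
    by_cases k2 : Rp D y z
    · exact .inr (Rp.comm hD (S1 hy) (S1 hx) (fun e => k1 e.symm) (h1.resolve_left k1).symm k2).symm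
    by_contra k3
    have k4 : X (x, z) = X (a, c) := eq_of_le_of_card_ge ((closure_le _).2 (by
      rintro s (h | rfl)
      exacts [S2 s (S4 x hx s h), S2 s hz])) (hmin (x, z) ⟨S1 hx, S1 hz, k3⟩)
    obtain ⟨p, hp, q, hq, l1, l2⟩ := exists_fo hD hcl hfo (S1 hy)
    have l3 : Rp D y p := (l2 ▸ (Rp.of_fo hD hp hq l1).1).symm
    have l4 : Rp D y q := l3.trans (Rp.of_fo hD hp hq l1).2
    have l5 : X (x, z) ≤ 𝐂[p] := (closure_le _).2 (by
      rintro s (h | rfl)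
      · exact mem_cent1_iff.2 (Rp.comm hD (S1 hx) hp (fun e => k1 (e.trans l3.symm))
          (Rp.comm hD (S1 hy) (S1 hx) (fun e => k1 e.symm) (h1.resolve_left k1).symm l3).symm h)
      · exact mem_cent1_iff.2 (Rp.comm hD (S1 hy) (S1 hz) k2 (h2.resolve_left k2) l3).symm)
    exact l1.not_comm hD hp hq (mem_cent1_iff.1 (l5 (k4.ge (S2 q (S4 y hy q l4))))).symm
  have S5 : closure S ≤ X (a, c) := (closure_le _).2 S2
  have hpart : Part {x : closure S | x.1 ∈ S}
      fun x y => x.1 ∈ S ∧ y.1 ∈ S ∧ (Rp D x.1 y.1 ∨ x.1 * y.1 = y.1 * x.1) :=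
    ⟨rt, fun h => ⟨h.2.1, h.1, h.2.2.imp Rp.symm Eq.symm⟩,
      fun h h' => ⟨h.1, h'.2.1, tr _ h.1 _ h.2.1 _ h'.2.1 h.2.2 h'.2.2⟩,
      fun g h => ⟨S3 g (S5 g.2) _ h.1, S3 g (S5 g.2) _ h.2.1, h.2.2.imp (fun h => h.conj hD g)
        fun h => by simp only [coe_mul, coe_inv, conj_mul, h]⟩,
      fun h1 h2 e => ⟨h1, h2, .inr (congrArg Subtype.val e)⟩,
      ⟨a, subset_closure aS⟩, aS, ⟨c, subset_closure cS⟩, cS, fun h => hac h.2.2⟩
  obtain ⟨p, hp, q, hq, l1, l2⟩ := exists_fo hD hcl hfo ha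
  have l3 : Rp D a p := (l2 ▸ (Rp.of_fo hD hp hq l1).1).symm
  have l4 := (Rp.of_fo hD hp hq l1).2
  have pS := S4 a aS p l3
  have qS := S4 p pS q l4
  have l5 : p * a = a * p := l2 ▸ l1.comm_left hD hp hq
  have l6 : p * a ∈ D := l2 ▸ l1.mul_left_mem hD hp hq
  have l7 : p * a ∈ S := S4 a aS _ (Rp.single hD ha l6 (by rw [← mul_assoc, l5]) (by
    rwa [l5, ii (sq hD ha)]))
  exact l1.not_comm hD hp hq (congrArg Subtype.val (hpart.comm_of_E
    ⟨⟨p, subset_closure pS⟩ * ⟨a, subset_closure aS⟩, l7, _, pS, _, aS, Subtype.ext l5,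
      fun e => ne_one hD l6 (congrArg Subtype.val e), rfl⟩ (a := ⟨p, subset_closure pS⟩)
    (b := ⟨q, subset_closure qS⟩) pS qS ⟨pS, qS, .inl l4⟩))

variable [Finite G] (hni : ∀ a ∈ D, RI.NI D a)
include hni

omit hfo in
theorem odd_ne_of_fo (ha : a ∈ D) (hb : b ∈ D) (hx : x ∈ D) (h1 : Fo a x) (h2 : x * b = b * x) :
    oddPartners D a ≠ oddPartners D b := fun h =>
  h1.not_comm hD ha hx (cm_of_odd_eq hD hcl hni hb ha h.symm hx h2).symm

theorem gen_eq_top (hd : d ∈ D) (hx : x ∈ D) (ho : Od d x) :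
    closure (productPartners D d ∪ {x}) = ⊤ := by
  set U := closure (productPartners D d ∪ {x})
  have dd := sq hD hd
  have m1 : ∀ e ∈ D, e * d = d * e → e * d ∈ D → e ∈ U := fun e he h1 h2 =>
    subset_closure (.inl ⟨⟨he, h1, fun e1 => ne_one hD h2 (by rw [e1, dd])⟩, h2⟩)
  have xU : x ∈ U := subset_closure (.inr rfl)
  have m2 : ∀ e ∈ D, e * d = d * e → e * d ∈ D → d ∈ U := fun e he h1 h2 => by
    simpa only [ii (sq hD he)] using mul_mem (m1 e he h1 h2) (m1 _ h2 (by rw [← mul_assoc, h1])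
      (by rwa [mul_assoc, dd, mul_one]))
  have key : ∀ e ∈ D, e * d = d * e → e * d ∈ D → ∃ u ∈ U, e = u * d * u⁻¹ := by
    intro e he h1 h2
    have eU := m1 e he h1 h2
    have dU := m2 e he h1 h2
    by_cases h3 : Od e x
    · obtain ⟨n, e1⟩ := exists_conj_of_od hD hd hx ho
      obtain ⟨m, e2⟩ := exists_conj_of_od hD hx he h3.symm
      exact ⟨_, mul_mem (zpow_mem (mul_mem xU eU) m) (zpow_mem (mul_mem dU xU) n), by
        conv_lhs => rw [← e2]; enter [1, 2]; rw [← e1]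
        group⟩
    have h4 := (L1 hD hd he hx h1.symm (h1 ▸ h2) ho h3).1
    have hb : P D d x e := ⟨he, h1.symm, h1 ▸ h2, h4⟩
    obtain ⟨u, hu, e1⟩ := L2 hD hd hx ho hb
    obtain ⟨v, hv, e2⟩ := L2 hD hx hd ho.symm hu
    have uU : u ∈ U := by
      have := mul_mem (m1 v hv.1 hv.2.1.symm (hv.2.1 ▸ hv.2.2.1)) xU
      exact e2 ▸ mul_mem this this
    obtain ⟨w, hw, k1, k2, k3⟩ := exists_special hD hcl he hd h1 h2 fun e =>
      (mem_odd_iff.1 (e.ge (mem_odd_iff.2 ⟨hx, ho⟩))).2.not_fo h4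
    have ww := sq hD hw
    have wU := m1 w hw k3 (by
      have : w * d = e * w * e := by
        calc w * d = w * e * (w * e) * w := by
              rw [← ii (sq hD he) d, ← k2]; simp only [mul_assoc]
          _ = _ := by rw [← k1.swap hD hw he]; simp only [mul_assoc, ww, mul_one]
      exact this ▸ conj_mem hD hw he)
    refine ⟨w * u, mul_mem wU uU, ?_⟩
    have : u * d * u = e * d := by rw [← e1]; simp only [mul_assoc, dd, mul_one]
    rw [mul_inv_rev, inv_eq hD hw, inv_eq hD hu.1]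
    calc e = w * (w * e * w) * w := by simp only [mul_assoc, ii ww, ww, mul_one]
      _ = _ := by rw [k2, ← this]; simp only [mul_assoc]
  have dU : d ∈ U := by
    obtain ⟨p, hp, q, hq, l1, l2⟩ := exists_fo hD hcl hfo hd
    exact m2 p hp (l2 ▸ l1.comm_left hD hp hq) (l2 ▸ l1.mul_left_mem hD hp hq)
  rw [eq_top_iff, ← hD.generates, closure_le]
  intro c hc
  have : ∃ u ∈ U, c = u * d * u⁻¹ := by
    have h := rp_conn hD hcl hfo hd hc
    clear hc
    induction h with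
    | refl => exact ⟨1, one_mem _, by simp⟩
    | @tail _ c _ h2 ih =>
      obtain ⟨u, hu, rfl⟩ := ih
      obtain ⟨v, hv, e⟩ := key (u⁻¹ * c * u) (by simpa using hD.conj_mem c h2.2.1 u⁻¹) (by
        calc _ = u⁻¹ * (c * (u * d * u⁻¹)) * u := by group
          _ = _ := by rw [← h2.2.2.2.1]; group) (by
        convert hD.conj_mem _ (h2.2.2.2.1 ▸ h2.2.2.2.2) u⁻¹ using 1
        group)
      exact ⟨u * v, mul_mem hu hv, by rw [mul_inv_rev, mul_assoc u, mul_assoc u, ← mul_assoc _ v⁻¹, ← e]; group⟩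
  obtain ⟨u, hu, rfl⟩ := this
  exact mul_mem (mul_mem hu dU) (inv_mem hu)

theorem weak_ti {T : Set G} (hT : IsWeakTISubsetOfElements D T) (ha : a ∈ T) (hb : b ∈ T) :
    a * b = b * a := by
  obtain ⟨hsub, -, hne, hti⟩ := hT
  let N : Subgroup G :=
    { carrier := {g | ∀ t ∈ T, g * t * g⁻¹ ∈ T ∧ g⁻¹ * t * g ∈ T}
      one_mem' := by simp
      mul_mem' := fun {x y} hx hy t ht => by
        simpa only [mul_inv_rev, mul_assoc] using And.intro (hx _ (hy t ht).1).1 (hy _ (hx t ht).2).2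
      inv_mem' := fun {x} hx t ht => by simpa only [inv_inv] using (hx t ht).symm }
  have hN : ∀ a ∈ T, ∀ e ∈ D, e * a = a * e → e ∈ N := fun a ha e he h t ht => by
    have : e * t * e⁻¹ ∈ T := by
      rcases hti e he with h1 | h1
      · exact h1.le ⟨t, ht, rfl⟩
      · exact absurd ha (Set.disjoint_left.1 h1 ⟨a, ha, by simp [h]⟩)
    exact ⟨this, by simpa only [inv_eq hD he] using this⟩
  have no : ∀ a ∈ T, ∀ b ∈ T, ¬ Od a b := fun a ha b hb ho => by
    refine hne (le_antisymm hsub fun c hc => ?_)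
    obtain ⟨g, rfl⟩ := hcl a (hsub ha) c hc
    have : closure (productPartners D a ∪ {b}) ≤ N := (closure_le _).2 (by
      rintro x (h | rfl)
      exacts [hN a ha x h.1.1 h.1.2.1, hN x hb x (hsub hb) rfl])
    exact (this ((gen_eq_top hD hcl hfo hni (hsub ha) (hsub hb) ho).ge (mem_top g)) a ha).1
  have h1 := hsub ha
  have h2 := hsub hb
  rcases tri hD h1 h2 with h | h | h
  · exact h
  · exact absurd h (no a ha b hb)
  exfalso
  have hz := h.mem hD h1 h2
  have c1 := h.comm_left hD h1 h2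
  obtain ⟨f, hf, k1, k2, k3⟩ := exists_special hD hcl hz h1 c1.symm (c1 ▸ h.mul_left_mem hD h1 h2)
    (odd_ne_of_fo hD hcl hni h1 hz h2 h (h.comm_right hD h1 h2)).symm
  have k4 := three hD h1 hz h2 hf c1 (by simp only [mul_assoc, ii (sq hD h1)])
    (h.comm_right hD h1 h2) (k2.trans c1.symm) k3
  have ho : Od b f := ⟨fun e => by
    rw [e, sq hD hf, orderOf_one] at k4; exact absurd k4 (by decide), by rw [k4]; decide⟩
  obtain ⟨n, e⟩ := exists_conj_of_od hD h2 hf ho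
  have : (b * f) ^ n ∈ N := zpow_mem (mul_mem (hN b hb b h2 rfl) (hN a ha f hf k3)) n
  exact no b hb f (e ▸ (this b hb).1) ho

omit hfo hni in
theorem ni_of_nd (h : ∃ a ∈ D, ∃ b ∈ D, a ≠ b ∧ Odd (orderOf (a * b))) (hc : c ∈ D) : RI.NI D c := by
  obtain ⟨a, ha, b, hb, h⟩ := h
  obtain ⟨g, rfl⟩ := hcl a ha c hc
  exact RI.NI.conj hD ⟨b, hb, h⟩ g

end Cfsg.Agent.H8.ZD
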